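import Mathlib

/-!
# Tensor powers of matrices

`ten gs` is the matrix on `F^(Fin t → Fin k)` with entries `∏ i, gs i (a i) (b i)`, `tau i A` is `A` in
position `i`, and `perm σ` permutes the tensor factors.
-/

set_option autoImplicit false

namespace Cfsg.Agent.Lib.Classical.TenSpin.Ten

open Matrix

variable {F : Type*} [Field F] {k t : ℕ}

/-- The tensor product of `t` matrices. -/
def ten (gs : Fin t → Matrix (Fin k) (Fin k) F) : Matrix (Fin t → Fin k) (Fin t → Fin k) F :=
  Matrix.of fun a b => ∏ i, gs i (a i) (b i)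

theorem ten_apply (gs : Fin t → Matrix (Fin k) (Fin k) F) (a b : Fin t → Fin k) :
    ten gs a b = ∏ i, gs i (a i) (b i) := rfl

theorem ten_mul (gs hs : Fin t → Matrix (Fin k) (Fin k) F) :
    ten gs * ten hs = ten (fun i => gs i * hs i) := by
  ext a b
  simp only [Matrix.mul_apply, ten_apply]
  simp only [← Finset.prod_mul_distrib]
  rw [Finset.prod_univ_sum]
  simp [Fintype.piFinset_univ]

theorem ten_one : ten (fun _ : Fin t => (1 : Matrix (Fin k) (Fin k) F)) = 1 := by
  ext a b
  simp only [ten_apply, Matrix.one_apply, Finset.prod_ite_zero, funext_iff, Finset.mem_univ,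
    forall_true_left, Finset.prod_const_one]

theorem ten_transpose (gs : Fin t → Matrix (Fin k) (Fin k) F) :
    (ten gs)ᵀ = ten (fun i => (gs i)ᵀ) := by
  ext a b
  simp [ten_apply, Matrix.transpose_apply]

/-- `A` in position `i`. -/
def tau (i : Fin t) (A : Matrix (Fin k) (Fin k) F) : Matrix (Fin t → Fin k) (Fin t → Fin k) F :=
  ten (Function.update (fun _ => 1) i A)

theorem tau_apply (i : Fin t) (A : Matrix (Fin k) (Fin k) F) (a b : Fin t → Fin k) :
    tau i A a b = A (a i) (b i) * ∏ j ∈ Finset.univ.erase i, (1 : Matrix (Fin k) (Fin k) F) (a j) (b j) := by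
  unfold tau
  rw [ten_apply, ← Finset.mul_prod_erase _ _ (Finset.mem_univ i), Function.update_self]
  congr 1
  apply Finset.prod_congr rfl
  intro j hj
  rw [Function.update_of_ne (Finset.ne_of_mem_erase hj)]

theorem tau_add (i : Fin t) (A B : Matrix (Fin k) (Fin k) F) : tau i (A + B) = tau i A + tau i B := by
  ext a b
  simp only [Matrix.add_apply, tau_apply, add_mul]

theorem tau_smul (i : Fin t) (c : F) (A : Matrix (Fin k) (Fin k) F) : tau i (c • A) = c • tau i A := by
  ext a b
  simp only [Matrix.smul_apply, tau_apply, smul_eq_mul, mul_assoc]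

theorem tau_zero (i : Fin t) : tau i (0 : Matrix (Fin k) (Fin k) F) = 0 := by
  ext a b
  simp [tau_apply]

theorem tau_one (i : Fin t) : tau i (1 : Matrix (Fin k) (Fin k) F) = 1 := by
  unfold tau
  rw [← ten_one]
  congr 1
  funext j
  by_cases h : j = i
  · subst h; simp
  · simp [Function.update_of_ne h]

theorem tau_mul (i : Fin t) (A B : Matrix (Fin k) (Fin k) F) : tau i A * tau i B = tau i (A * B) := by
  unfold tau
  rw [ten_mul]
  congr 1
  funext j
  by_cases h : j = i
  · subst h; simp
  · simp [Function.update_of_ne h]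

theorem tau_comm {i j : Fin t} (h : i ≠ j) (A B : Matrix (Fin k) (Fin k) F) :
    tau i A * tau j B = tau j B * tau i A := by
  unfold tau
  rw [ten_mul, ten_mul]
  congr 1
  funext l
  by_cases h1 : l = i
  · subst h1; simp [Function.update_of_ne h]
  · by_cases h2 : l = j
    · subst h2; simp [Function.update_of_ne h1]
    · simp [Function.update_of_ne h1, Function.update_of_ne h2]

theorem ten_mul_tau (gs : Fin t → Matrix (Fin k) (Fin k) F) (i : Fin t)
    {A C : Matrix (Fin k) (Fin k) F} (h : gs i * A = C * gs i) :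
    ten gs * tau i A = tau i C * ten gs := by
  unfold tau
  rw [ten_mul, ten_mul]
  congr 1
  funext l
  by_cases h1 : l = i
  · subst h1; simpa using h
  · simp [Function.update_of_ne h1]

theorem tau_transpose (i : Fin t) (A : Matrix (Fin k) (Fin k) F) : (tau i A)ᵀ = tau i Aᵀ := by
  unfold tau
  rw [ten_transpose]
  congr 1
  funext l
  by_cases h1 : l = i
  · subst h1; simp
  · simp [Function.update_of_ne h1]

/-- `tau i` as a self-adjointness transfer: if `Aᵀ G = G A` then the same holds for `tau i A` and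
the tensor power of `G`. -/
theorem tau_adj (i : Fin t) {A G : Matrix (Fin k) (Fin k) F} (h : Aᵀ * G = G * A) :
    (tau i A)ᵀ * ten (fun _ => G) = ten (fun _ => G) * tau i A := by
  rw [tau_transpose]
  unfold tau
  rw [ten_mul, ten_mul]
  congr 1
  funext l
  by_cases h1 : l = i
  · subst h1; simpa using h
  · simp [Function.update_of_ne h1]

/-- Permutation of tensor factors. -/
def perm (σ : Equiv.Perm (Fin t)) : Matrix (Fin t → Fin k) (Fin t → Fin k) F :=
  Matrix.of fun x y => if y = x ∘ σ then 1 else 0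

theorem perm_apply (σ : Equiv.Perm (Fin t)) (x y : Fin t → Fin k) :
    (perm σ : Matrix (Fin t → Fin k) (Fin t → Fin k) F) x y = if y = x ∘ σ then 1 else 0 := rfl

theorem perm_mul (σ ρ : Equiv.Perm (Fin t)) :
    (perm σ * perm ρ : Matrix (Fin t → Fin k) (Fin t → Fin k) F) = perm (σ * ρ) := by
  ext x y
  simp only [Matrix.mul_apply, perm_apply, ite_mul, one_mul, zero_mul, Finset.sum_ite_eq',
    Finset.mem_univ, if_true]
  simp only [Function.comp_assoc, Equiv.Perm.coe_mul]
  rfl

theorem perm_one : (perm 1 : Matrix (Fin t → Fin k) (Fin t → Fin k) F) = 1 := by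
  ext x y
  simp only [perm_apply, Matrix.one_apply, Equiv.Perm.coe_one, Function.comp_id]
  simp only [eq_comm]

theorem perm_mul_ten (σ : Equiv.Perm (Fin t)) (gs : Fin t → Matrix (Fin k) (Fin k) F) :
    perm σ * ten gs = ten (fun i => gs (σ⁻¹ i)) * perm σ := by
  ext x y
  simp only [Matrix.mul_apply, perm_apply, ite_mul, one_mul, zero_mul, Finset.sum_ite_eq',
    Finset.mem_univ, if_true, mul_ite, mul_one, mul_zero, ten_apply]
  have hy : ∀ c : Fin t → Fin k, y = c ∘ σ ↔ c = fun i => y (σ⁻¹ i) := by
    intro c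
    constructor
    · rintro rfl
      funext i
      simp
    · rintro rfl
      funext i
      simp
  simp only [hy, Finset.sum_ite_eq', Finset.mem_univ, if_true]
  apply Fintype.prod_equiv σ
  intro i
  simp

theorem perm_mul_tau (σ : Equiv.Perm (Fin t)) (i : Fin t) (A : Matrix (Fin k) (Fin k) F) :
    perm σ * tau i A = tau (σ i) A * perm σ := by
  unfold tau
  rw [perm_mul_ten]
  congr 2
  funext l
  by_cases h : l = σ i
  · subst h; simp
  · have : σ⁻¹ l ≠ i := by
      intro h'
      apply h
      rw [← h']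
      simp
    rw [Function.update_of_ne this, Function.update_of_ne h]

theorem perm_transpose (σ : Equiv.Perm (Fin t)) :
    (perm σ : Matrix (Fin t → Fin k) (Fin t → Fin k) F)ᵀ = perm σ⁻¹ := by
  ext x y
  simp only [Matrix.transpose_apply, perm_apply]
  have : x = y ∘ σ ↔ y = x ∘ (⇑(σ⁻¹)) := by
    constructor
    · rintro rfl
      funext i
      simp
    · rintro rfl
      funext i
      simp
  simp only [this]

/-- A pure tensor of vectors. -/
def ptn (vs : Fin t → Fin k → F) : (Fin t → Fin k) → F := fun a => ∏ i, vs i (a i)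

theorem ten_mulVec_ptn (gs : Fin t → Matrix (Fin k) (Fin k) F) (vs : Fin t → Fin k → F) :
    ten gs *ᵥ ptn vs = ptn (fun i => gs i *ᵥ vs i) := by
  funext a
  simp only [Matrix.mulVec, dotProduct, ptn, ten_apply]
  simp only [← Finset.prod_mul_distrib]
  rw [Finset.prod_univ_sum]
  simp [Fintype.piFinset_univ]

theorem tau_mulVec_ptn (i : Fin t) (A : Matrix (Fin k) (Fin k) F) (vs : Fin t → Fin k → F) :
    tau i A *ᵥ ptn vs = ptn (Function.update vs i (A *ᵥ vs i)) := by
  unfold tau
  rw [ten_mulVec_ptn]
  congr 1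
  funext l
  by_cases h : l = i
  · subst h; simp
  · simp [Function.update_of_ne h]

theorem ptn_dot (vs ws : Fin t → Fin k → F) :
    ptn vs ⬝ᵥ ptn ws = ∏ i, vs i ⬝ᵥ ws i := by
  simp only [dotProduct, ptn]
  simp only [← Finset.prod_mul_distrib]
  rw [Finset.prod_univ_sum]
  simp [Fintype.piFinset_univ]

theorem single_eq_ptn (a : Fin t → Fin k) :
    (Pi.single a 1 : (Fin t → Fin k) → F) = ptn (fun i => Pi.single (a i) 1) := by
  funext b
  simp only [ptn, Pi.single_apply, Finset.prod_ite_zero, funext_iff, Finset.mem_univ,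
    forall_true_left, Finset.prod_const_one]

/-- The form attached to the tensor power of `G`, evaluated on pure tensors. -/
theorem form_ptn (G : Matrix (Fin k) (Fin k) F) (vs ws : Fin t → Fin k → F) :
    ptn vs ⬝ᵥ (ten (fun _ => G) *ᵥ ptn ws) = ∏ i, vs i ⬝ᵥ (G *ᵥ ws i) := by
  rw [ten_mulVec_ptn, ptn_dot]

end Cfsg.Agent.Lib.Classical.TenSpin.Ten
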