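import Mathlib
import Cfsg.Agent.Lib.Classical.TenSpin.Ten

/-!
# The Clifford subspace of the tensor power

In characteristic two the sum `L` of the images `tau i Sub` behaves as a Clifford space: brackets of its
elements are scalar, non-zero elements have rank at least half of the dimension.
-/

set_option autoImplicit false

namespace Cfsg.Agent.Lib.Classical.TenSpin.Cliff

open Matrix Ten

variable {F : Type*} [Field F] [CharP F 2] {k t : ℕ}

theorem add_self_matrix {n : Type*} (x : Matrix n n F) : x + x = 0 := by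
  ext i j
  simp [CharTwo.add_self_eq_zero]

/-- The Clifford subspace. -/
def LL (Sub : Submodule F (Matrix (Fin k) (Fin k) F)) :
    Submodule F (Matrix (Fin t → Fin k) (Fin t → Fin k) F) where
  carrier := {x | ∃ A : Fin t → Matrix (Fin k) (Fin k) F, (∀ i, A i ∈ Sub) ∧ x = ∑ i, tau i (A i)}
  add_mem' := by
    rintro _ _ ⟨A, hA, rfl⟩ ⟨B, hB, rfl⟩
    refine ⟨A + B, fun i => Sub.add_mem (hA i) (hB i), ?_⟩
    rw [← Finset.sum_add_distrib]
    apply Finset.sum_congr rfl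
    intro i _
    rw [Pi.add_apply, tau_add]
  zero_mem' := by
    refine ⟨0, fun i => Sub.zero_mem, ?_⟩
    simp [tau_zero]
  smul_mem' := by
    rintro c _ ⟨A, hA, rfl⟩
    refine ⟨c • A, fun i => Sub.smul_mem c (hA i), ?_⟩
    rw [Finset.smul_sum]
    apply Finset.sum_congr rfl
    intro i _
    rw [Pi.smul_apply, tau_smul]

theorem mem_LL {Sub : Submodule F (Matrix (Fin k) (Fin k) F)}
    {x : Matrix (Fin t → Fin k) (Fin t → Fin k) F} :
    x ∈ LL Sub ↔ ∃ A : Fin t → Matrix (Fin k) (Fin k) F, (∀ i, A i ∈ Sub) ∧ x = ∑ i, tau i (A i) :=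
  Iff.rfl

theorem tau_mem_LL {Sub : Submodule F (Matrix (Fin k) (Fin k) F)} (i : Fin t)
    {A : Matrix (Fin k) (Fin k) F} (hA : A ∈ Sub) : tau i A ∈ LL Sub := by
  refine ⟨Function.update 0 i A, ?_, ?_⟩
  · intro j
    by_cases h : j = i
    · subst h; simpa using hA
    · simp [Function.update_of_ne h, Sub.zero_mem]
  · rw [Finset.sum_eq_single i]
    · simp
    · intro j _ h
      simp [Function.update_of_ne h, tau_zero]
    · simp

theorem smul_one_mem_LL {Sub : Submodule F (Matrix (Fin k) (Fin k) F)} (i : Fin t)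
    (h1 : (1 : Matrix (Fin k) (Fin k) F) ∈ Sub) (c : F) :
    c • (1 : Matrix (Fin t → Fin k) (Fin t → Fin k) F) ∈ LL Sub := by
  apply (LL Sub).smul_mem
  have := tau_mem_LL (t := t) i h1
  rwa [tau_one] at this

/-- The bracket with a single `tau`. -/
theorem sum_tau_bracket (A : Fin t → Matrix (Fin k) (Fin k) F) (i : Fin t)
    (B : Matrix (Fin k) (Fin k) F) :
    (∑ j, tau j (A j)) * tau i B + tau i B * ∑ j, tau j (A j) = tau i (A i * B + B * A i) := by
  rw [Finset.sum_mul, Finset.mul_sum, ← Finset.sum_add_distrib, Finset.sum_eq_single i]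
  · rw [tau_mul, tau_mul, tau_add]
  · intro j _ hj
    rw [tau_comm hj]
    exact add_self_matrix _
  · simp

/-- The bracket of two elements of the form `∑ tau`. -/
theorem sum_sum_bracket (A B : Fin t → Matrix (Fin k) (Fin k) F) :
    (∑ j, tau j (A j)) * (∑ j, tau j (B j)) + (∑ j, tau j (B j)) * (∑ j, tau j (A j)) =
      ∑ i, tau i (A i * B i + B i * A i) := by
  rw [Finset.mul_sum, Finset.sum_mul (s := Finset.univ) (f := fun j => tau j (B j)), ← Finset.sum_add_distrib]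
  apply Finset.sum_congr rfl
  intro i _
  exact sum_tau_bracket A i (B i)

/-- Brackets in `Sub` are scalar if squares are. -/
theorem bracket_sub {Sub : Submodule F (Matrix (Fin k) (Fin k) F)}
    (hsq : ∀ A ∈ Sub, ∃ c : F, A * A = c • (1 : Matrix (Fin k) (Fin k) F))
    {A B : Matrix (Fin k) (Fin k) F} (hA : A ∈ Sub) (hB : B ∈ Sub) :
    ∃ c : F, A * B + B * A = c • (1 : Matrix (Fin k) (Fin k) F) := by
  obtain ⟨a, ha⟩ := hsq A hA
  obtain ⟨b, hb⟩ := hsq B hB
  obtain ⟨d, hd⟩ := hsq (A + B) (Sub.add_mem hA hB)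
  refine ⟨d - a - b, ?_⟩
  have : A * B + B * A = (A + B) * (A + B) - A * A - B * B := by noncomm_ring
  rw [this, hd, ha, hb, sub_smul, sub_smul]

/-- Brackets in `L` are scalar. -/
theorem bracket_LL {Sub : Submodule F (Matrix (Fin k) (Fin k) F)}
    (hsq : ∀ A ∈ Sub, ∃ c : F, A * A = c • (1 : Matrix (Fin k) (Fin k) F))
    {x y : Matrix (Fin t → Fin k) (Fin t → Fin k) F} (hx : x ∈ LL Sub) (hy : y ∈ LL Sub) :
    ∃ c : F, x * y + y * x = c • (1 : Matrix (Fin t → Fin k) (Fin t → Fin k) F) := by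
  obtain ⟨A, hA, rfl⟩ := hx
  obtain ⟨B, hB, rfl⟩ := hy
  rw [sum_sum_bracket]
  choose c hc using fun i => bracket_sub hsq (hA i) (hB i)
  refine ⟨∑ i, c i, ?_⟩
  rw [Finset.sum_smul]
  apply Finset.sum_congr rfl
  intro i _
  rw [hc, tau_smul, tau_one]

/-- `1 + a` normalises `L` when `a ∈ L` has square zero. -/
theorem one_add_conj_mem {Sub : Submodule F (Matrix (Fin k) (Fin k) F)} (i₀ : Fin t)
    (h1 : (1 : Matrix (Fin k) (Fin k) F) ∈ Sub)
    (hsq : ∀ A ∈ Sub, ∃ c : F, A * A = c • (1 : Matrix (Fin k) (Fin k) F))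
    {a y : Matrix (Fin t → Fin k) (Fin t → Fin k) F} (ha : a ∈ LL Sub) (haa : a * a = 0)
    (hy : y ∈ LL Sub) : (1 + a) * y * (1 + a) ∈ LL Sub := by
  obtain ⟨c, hc⟩ := bracket_LL hsq ha hy
  have h2 : y * a = c • 1 - a * y := by rw [← hc]; abel
  have h3 : (1 + a) * y * (1 + a) = y + c • 1 + c • a := by
    have h4 : a * y * a = c • a := by
      rw [mul_assoc, h2, mul_sub, mul_smul_comm, mul_one, ← mul_assoc, haa, zero_mul, sub_zero]
    calc (1 + a) * y * (1 + a) = y + (a * y + y * a) + a * y * a := by noncomm_ring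
      _ = _ := by rw [hc, h4]
  rw [h3]
  exact (LL Sub).add_mem ((LL Sub).add_mem hy (smul_one_mem_LL i₀ h1 c)) ((LL Sub).smul_mem c ha)

/-- Rank is subadditive. -/
theorem rank_add_le' {n : Type*} [Fintype n] [DecidableEq n] (A B : Matrix n n F) :
    (A + B).rank ≤ A.rank + B.rank := by
  unfold Matrix.rank
  have h : LinearMap.range (A + B).mulVecLin ≤ LinearMap.range A.mulVecLin ⊔ LinearMap.range B.mulVecLin := by
    rintro _ ⟨x, rfl⟩
    rw [Matrix.mulVecLin_add, LinearMap.add_apply]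
    exact Submodule.add_mem_sup ⟨x, rfl⟩ ⟨x, rfl⟩
  exact (Submodule.finrank_mono h).trans (Submodule.finrank_add_le_finrank_add_finrank _ _)

/-- Non-zero elements of `L` have rank at least half of the dimension. -/
theorem rank_LL {Sub : Submodule F (Matrix (Fin k) (Fin k) F)}
    (hinv : ∀ A ∈ Sub, (∃ c : F, A = c • (1 : Matrix (Fin k) (Fin k) F)) ∨
      ∃ B : Matrix (Fin k) (Fin k) F, A * B + B * A = 1)
    {x : Matrix (Fin t → Fin k) (Fin t → Fin k) F} (hx : x ∈ LL Sub) (hx0 : x ≠ 0) :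
    Fintype.card (Fin t → Fin k) ≤ 2 * x.rank := by
  obtain ⟨A, hA, rfl⟩ := hx
  by_cases hs : ∀ i, ∃ c : F, A i = c • (1 : Matrix (Fin k) (Fin k) F)
  · choose c hc using hs
    have h2 : (∑ i, tau i (A i)) = (∑ i, c i) • (1 : Matrix (Fin t → Fin k) (Fin t → Fin k) F) := by
      rw [Finset.sum_smul]
      apply Finset.sum_congr rfl
      intro i _
      rw [hc, tau_smul, tau_one]
    rw [h2] at hx0 ⊢
    have h3 : (∑ i, c i) ≠ 0 := by
      intro h
      apply hx0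
      rw [h, zero_smul]
    have h4 : IsUnit ((∑ i, c i) • (1 : Matrix (Fin t → Fin k) (Fin t → Fin k) F)) := by
      rw [Matrix.isUnit_iff_isUnit_det, Matrix.det_smul, Matrix.det_one, mul_one]
      exact (IsUnit.mk0 _ h3).pow _
    rw [Matrix.rank_of_isUnit _ h4]
    omega
  · push_neg at hs
    obtain ⟨i, hi⟩ := hs
    obtain ⟨B, hB⟩ : ∃ B : Matrix (Fin k) (Fin k) F, A i * B + B * A i = 1 := by
      rcases hinv _ (hA i) with ⟨c, hc⟩ | h
      · exact absurd hc (hi c)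
      · exact h
    have h1 := sum_tau_bracket A i B
    rw [hB, tau_one] at h1
    have h2 : Fintype.card (Fin t → Fin k) = (1 : Matrix (Fin t → Fin k) (Fin t → Fin k) F).rank :=
      (Matrix.rank_one).symm
    rw [h2, ← h1]
    refine (rank_add_le' _ _).trans ?_
    have h3 := Matrix.rank_mul_le_left (∑ j, tau j (A j)) (tau i B)
    have h4 := Matrix.rank_mul_le_right (tau i B) (∑ j, tau j (A j))
    omega

/-- A matrix of rank at most two, commuting with two commuting Clifford pairs, vanishes. -/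
theorem low_rank_comm {n : Type*} [Fintype n] [DecidableEq n]
    {R a₁ b₁ a₂ b₂ : Matrix n n F} (hrk : R.rank ≤ 2)
    (h11 : a₁ * a₁ = 0) (h22 : a₂ * a₂ = 0) (h1 : a₁ * b₁ + b₁ * a₁ = 1) (h2 : a₂ * b₂ + b₂ * a₂ = 1)
    (h12 : a₁ * a₂ = a₂ * a₁) (h3 : a₁ * b₂ = b₂ * a₁) (h4 : a₂ * b₁ = b₁ * a₂)
    (ca₁ : R * a₁ = a₁ * R) (ca₂ : R * a₂ = a₂ * R) (cb₁ : R * b₁ = b₁ * R) (cb₂ : R * b₂ = b₂ * R) :
    R = 0 := by
  by_contra hR
  -- a nonzero vector in the range
  obtain ⟨w, hw⟩ : ∃ w, R *ᵥ w ≠ 0 := by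
    by_contra hcon
    push_neg at hcon
    apply hR
    apply Matrix.ext_of_mulVec_single
    intro i
    rw [hcon, Matrix.zero_mulVec]
  have stab : ∀ (M : Matrix n n F), R * M = M * R → ∀ x ∈ LinearMap.range R.mulVecLin,
      M *ᵥ x ∈ LinearMap.range R.mulVecLin := by
    rintro M hM _ ⟨y, rfl⟩
    refine ⟨M *ᵥ y, ?_⟩
    simp only [Matrix.mulVecLin_apply, Matrix.mulVec_mulVec, hM]
  obtain ⟨u₁, hu₁, hu₁0, hu₁a⟩ : ∃ u ∈ LinearMap.range R.mulVecLin, u ≠ 0 ∧ a₁ *ᵥ u = 0 := by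
    by_cases h : a₁ *ᵥ (R *ᵥ w) = 0
    · exact ⟨R *ᵥ w, ⟨w, rfl⟩, hw, h⟩
    · refine ⟨a₁ *ᵥ (R *ᵥ w), stab a₁ ca₁ _ ⟨w, rfl⟩, h, ?_⟩
      rw [Matrix.mulVec_mulVec, h11, Matrix.zero_mulVec]
  obtain ⟨u, hu, hu0, hua₁, hua₂⟩ : ∃ u ∈ LinearMap.range R.mulVecLin, u ≠ 0 ∧ a₁ *ᵥ u = 0 ∧ a₂ *ᵥ u = 0 := by
    by_cases h : a₂ *ᵥ u₁ = 0
    · exact ⟨u₁, hu₁, hu₁0, hu₁a, h⟩
    · refine ⟨a₂ *ᵥ u₁, stab a₂ ca₂ _ hu₁, h, ?_, ?_⟩
      · rw [Matrix.mulVec_mulVec, h12, ← Matrix.mulVec_mulVec, hu₁a, Matrix.mulVec_zero]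
      · rw [Matrix.mulVec_mulVec, h22, Matrix.zero_mulVec]
  have hb₁ : a₁ *ᵥ (b₁ *ᵥ u) = u := by
    have : a₁ * b₁ = 1 - b₁ * a₁ := by rw [← h1]; abel
    rw [Matrix.mulVec_mulVec, this, Matrix.sub_mulVec, Matrix.one_mulVec, ← Matrix.mulVec_mulVec, hua₁,
      Matrix.mulVec_zero, sub_zero]
  have hb₂ : a₂ *ᵥ (b₂ *ᵥ u) = u := by
    have : a₂ * b₂ = 1 - b₂ * a₂ := by rw [← h2]; abel
    rw [Matrix.mulVec_mulVec, this, Matrix.sub_mulVec, Matrix.one_mulVec, ← Matrix.mulVec_mulVec, hua₂,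
      Matrix.mulVec_zero, sub_zero]
  have hc₁ : a₁ *ᵥ (b₂ *ᵥ u) = 0 := by
    rw [Matrix.mulVec_mulVec, h3, ← Matrix.mulVec_mulVec, hua₁, Matrix.mulVec_zero]
  have hc₂ : a₂ *ᵥ (b₁ *ᵥ u) = 0 := by
    rw [Matrix.mulVec_mulVec, h4, ← Matrix.mulVec_mulVec, hua₂, Matrix.mulVec_zero]
  -- three independent vectors in a space of dimension at most two
  let U := LinearMap.range R.mulVecLin
  let v : Fin 3 → U := ![⟨u, hu⟩, ⟨b₁ *ᵥ u, stab b₁ cb₁ _ hu⟩, ⟨b₂ *ᵥ u, stab b₂ cb₂ _ hu⟩]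
  have hv : LinearIndependent F v := by
    rw [Fintype.linearIndependent_iff]
    intro g hg
    have hg' : g 0 • u + g 1 • (b₁ *ᵥ u) + g 2 • (b₂ *ᵥ u) = 0 := by
      have := congrArg (Subtype.val) hg
      simpa [Fin.sum_univ_three, v] using this
    have e1 := congrArg (fun z => a₁ *ᵥ z) hg'
    have e2 := congrArg (fun z => a₂ *ᵥ z) hg'
    simp only [Matrix.mulVec_add, Matrix.mulVec_smul, hua₁, hb₁, hc₁, smul_zero, zero_add, add_zero,
      Matrix.mulVec_zero] at e1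
    simp only [Matrix.mulVec_add, Matrix.mulVec_smul, hua₂, hb₂, hc₂, smul_zero, zero_add, add_zero,
      Matrix.mulVec_zero] at e2
    have g1 : g 1 = 0 := (smul_eq_zero.mp e1).resolve_right hu0
    have g2 : g 2 = 0 := (smul_eq_zero.mp e2).resolve_right hu0
    have g0 : g 0 = 0 := by
      rw [g1, g2] at hg'
      simp only [zero_smul, add_zero] at hg'
      exact (smul_eq_zero.mp hg').resolve_right hu0
    intro i
    fin_cases i
    · exact g0
    · exact g1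
    · exact g2
  have := hv.fintype_card_le_finrank
  simp only [Fintype.card_fin] at this
  have hU : Module.finrank F U = R.rank := rfl
  omega

end Cfsg.Agent.Lib.Classical.TenSpin.Cliff
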