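import Mathlib
import Cfsg.Agent.Lib.Classical.TenSpin.Ten
import Cfsg.Agent.Lib.Classical.TenSpin.Cliff

/-!
# Isometries of the quadratic form vanishing on pure tensors
-/

set_option autoImplicit false

namespace Cfsg.Agent.Lib.Classical.TenSpin.Iso

open Matrix Ten Cliff

variable {F : Type*} [Field F] [CharP F 2] {k t : ℕ}

/-- The tensor power of `G`. -/
def GG (G : Matrix (Fin k) (Fin k) F) : Matrix (Fin t → Fin k) (Fin t → Fin k) F :=
  ten (fun _ => G)

/-- The hypotheses on the quadratic form. -/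
structure QD (G : Matrix (Fin k) (Fin k) F) (C : F) (Q : ((Fin t → Fin k) → F) → F) : Prop where
  smul : ∀ (c : F) v, Q (c • v) = c ^ 2 * Q v
  add : ∀ u v, Q (u + v) = Q u + Q v + C * (u ⬝ᵥ (GG G *ᵥ v))
  pure : ∀ vs, Q (ptn vs) = 0

theorem dot_mulVec_mulVec {n : Type*} [Fintype n] (x M : Matrix n n F) (u v : n → F) :
    (x *ᵥ u) ⬝ᵥ (M *ᵥ (x *ᵥ v)) = u ⬝ᵥ ((xᵀ * M * x) *ᵥ v) := by
  rw [Matrix.mulVec_mulVec, ← Matrix.vecMul_transpose, ← Matrix.dotProduct_mulVec,
    Matrix.mulVec_mulVec, Matrix.mul_assoc]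

variable {G : Matrix (Fin k) (Fin k) F} {C : F} {Q : ((Fin t → Fin k) → F) → F}

theorem QD.zero (h : QD G C Q) : Q 0 = 0 := by
  have := h.smul 0 0
  simpa using this

/-- A matrix preserving the form is an isometry of `Q` if it kills `Q` on the standard basis. -/
theorem iso_of_basis (h : QD G C Q) {x : Matrix (Fin t → Fin k) (Fin t → Fin k) F}
    (hx : xᵀ * GG G * x = GG G) (hb : ∀ a, Q (x *ᵥ (Pi.single a 1)) = 0) (v) :
    Q (x *ᵥ v) = Q v := by
  have hε : ∀ a, Q (Pi.single a 1 : (Fin t → Fin k) → F) = 0 := by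
    intro a
    rw [single_eq_ptn]
    exact h.pure _
  have hadd : ∀ u w, Q (x *ᵥ (u + w)) - Q (u + w) = (Q (x *ᵥ u) - Q u) + (Q (x *ᵥ w) - Q w) := by
    intro u w
    rw [Matrix.mulVec_add, h.add, h.add u w, dot_mulVec_mulVec, hx]
    ring
  have hsm : ∀ (c : F) u, Q (x *ᵥ (c • u)) - Q (c • u) = c ^ 2 * (Q (x *ᵥ u) - Q u) := by
    intro c u
    rw [Matrix.mulVec_smul, h.smul, h.smul]
    ring
  have hs : ∀ s : Finset (Fin t → Fin k),
      Q (x *ᵥ (∑ a ∈ s, v a • (Pi.single a 1 : (Fin t → Fin k) → F))) -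
        Q (∑ a ∈ s, v a • (Pi.single a 1 : (Fin t → Fin k) → F)) = 0 := by
    intro s
    induction s using Finset.induction_on with
    | empty =>
      simp [h.zero]
    | insert a s ha ih =>
      rw [Finset.sum_insert ha, hadd, ih, hsm, hb, hε]
      simp
  have hv : v = ∑ a, v a • (Pi.single a 1 : (Fin t → Fin k) → F) := by
    funext b
    simp [Finset.sum_apply, Pi.single_apply]
  have := hs Finset.univ
  rw [← hv] at this
  exact sub_eq_zero.mp this

/-- `1 + y` for a self-adjoint `y` of square zero preserves the form. -/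
theorem one_add_pres {y M : Matrix (Fin t → Fin k) (Fin t → Fin k) F} (hadj : yᵀ * M = M * y)
    (hyy : y * y = 0) : (1 + y)ᵀ * M * (1 + y) = M := by
  have h2 : M * y + M * y = 0 := add_self_matrix _
  calc (1 + y)ᵀ * M * (1 + y) = M + M * y + yᵀ * M + yᵀ * M * y := by
        rw [Matrix.transpose_add, Matrix.transpose_one]
        noncomm_ring
    _ = M := by
        rw [hadj, Matrix.mul_assoc, hyy, Matrix.mul_zero, add_zero, add_assoc, h2, add_zero]

/-- `1 + y` is an isometry. -/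
theorem one_add_iso (h : QD G C Q) {y : Matrix (Fin t → Fin k) (Fin t → Fin k) F}
    (hadj : yᵀ * GG G = GG G * y) (hyy : y * y = 0)
    (hb : ∀ vs : Fin t → Fin k → F, Q (y *ᵥ ptn vs) + C * (ptn vs ⬝ᵥ (GG G *ᵥ (y *ᵥ ptn vs))) = 0) (v) :
    Q ((1 + y) *ᵥ v) = Q v := by
  apply iso_of_basis h (one_add_pres hadj hyy)
  intro a
  rw [Matrix.add_mulVec, Matrix.one_mulVec, h.add, single_eq_ptn, h.pure, zero_add]
  exact hb _

theorem ptn_update_form_zero (hGa : ∀ v : Fin k → F, v ⬝ᵥ (G *ᵥ v) = 0) {i j : Fin t} (hij : i ≠ j)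
    (vs : Fin t → Fin k → F) (w : Fin k → F) :
    ptn vs ⬝ᵥ (GG G *ᵥ ptn (Function.update vs i w)) = 0 := by
  unfold GG
  rw [form_ptn]
  apply Finset.prod_eq_zero (Finset.mem_univ j)
  rw [Function.update_of_ne (Ne.symm hij)]
  exact hGa _

/-- `1 + tau i A` is an isometry for `A` self-adjoint of square zero. -/
theorem tau_iso (h : QD G C Q) (hGa : ∀ v : Fin k → F, v ⬝ᵥ (G *ᵥ v) = 0) {i j : Fin t} (hij : i ≠ j)
    {A : Matrix (Fin k) (Fin k) F} (hadj : Aᵀ * G = G * A) (hAA : A * A = 0) (v) :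
    Q ((1 + tau i A) *ᵥ v) = Q v := by
  apply one_add_iso h (tau_adj i hadj) (by rw [tau_mul, hAA, tau_zero])
  intro vs
  rw [tau_mulVec_ptn, h.pure, ptn_update_form_zero hGa hij]
  simp

/-- `1 + tau i s + tau j s` is an isometry for `s` a self-adjoint involution. -/
theorem sum_iso (h : QD G C Q) (hGa : ∀ v : Fin k → F, v ⬝ᵥ (G *ᵥ v) = 0) {i j : Fin t} (hij : i ≠ j)
    {s : Matrix (Fin k) (Fin k) F} (hadj : sᵀ * G = G * s) (hss : s * s = 1)
    (halt : 3 ≤ t ∨ ∀ v : Fin k → F, v ⬝ᵥ ((G * s) *ᵥ v) = 0) (v) :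
    Q ((1 + (tau i s + tau j s)) *ᵥ v) = Q v := by
  have hadj' : (tau i s + tau j s)ᵀ * GG G = GG G * (tau i s + tau j s) := by
    rw [Matrix.transpose_add, Matrix.add_mul, Matrix.mul_add]
    unfold GG
    rw [tau_adj i hadj, tau_adj j hadj]
  have hyy : (tau i s + tau j s) * (tau i s + tau j s) = 0 := by
    have h1 := tau_comm hij s s
    calc (tau i s + tau j s) * (tau i s + tau j s)
        = tau i s * tau i s + tau j s * tau j s + (tau i s * tau j s + tau j s * tau i s) := by noncomm_ring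
      _ = 0 := by
        rw [tau_mul, tau_mul, hss, tau_one, tau_one, h1, add_self_matrix, add_self_matrix, add_zero]
  apply one_add_iso h hadj' hyy
  intro vs
  rw [Matrix.add_mulVec, tau_mulVec_ptn, tau_mulVec_ptn, h.add, h.pure, h.pure, Matrix.mulVec_add,
    dotProduct_add, ptn_update_form_zero hGa hij, ptn_update_form_zero hGa (Ne.symm hij)]
  simp only [zero_add, add_zero, mul_zero]
  have : ptn (Function.update vs i (s *ᵥ vs i)) ⬝ᵥ (GG G *ᵥ ptn (Function.update vs j (s *ᵥ vs j))) = 0 := by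
    unfold GG
    rw [form_ptn]
    rcases halt with h3 | halt
    · -- a third position
      obtain ⟨l, hli, hlj⟩ : ∃ l : Fin t, l ≠ i ∧ l ≠ j := by
        by_contra hcon
        push_neg at hcon
        have hsub : (Finset.univ : Finset (Fin t)) ⊆ {i, j} := by
          intro l _
          by_cases hl : l = i
          · simp [hl]
          · simp [hcon l hl]
        have := Finset.card_le_card hsub
        rw [Finset.card_univ, Fintype.card_fin] at this
        have h2 : ({i, j} : Finset (Fin t)).card ≤ 2 := Finset.card_le_two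
        omega
      apply Finset.prod_eq_zero (Finset.mem_univ l)
      rw [Function.update_of_ne hli, Function.update_of_ne hlj]
      exact hGa _
    · apply Finset.prod_eq_zero (Finset.mem_univ j)
      rw [Function.update_of_ne (Ne.symm hij), Function.update_self, Matrix.mulVec_mulVec]
      exact halt _
  rw [this, mul_zero]

/-! ### Transvections -/

/-- The transvection of a vector. -/
noncomputable def TT (G : Matrix (Fin k) (Fin k) F) (C : F) (w : (Fin t → Fin k) → F) :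
    Matrix (Fin t → Fin k) (Fin t → Fin k) F :=
  1 + vecMulVec w (C • (GG G *ᵥ w))

theorem TT_mulVec (w x : (Fin t → Fin k) → F) :
    TT G C w *ᵥ x = x + (C * (x ⬝ᵥ (GG G *ᵥ w))) • w := by
  unfold TT
  rw [Matrix.add_mulVec, Matrix.one_mulVec, Matrix.vecMulVec_mulVec]
  congr 1
  ext i
  simp [dotProduct_comm, smul_dotProduct, mul_comm]

theorem self_form_zero (h : QD G C Q) (hC : C ≠ 0) (w : (Fin t → Fin k) → F) :
    w ⬝ᵥ (GG G *ᵥ w) = 0 := by
  have h1 := h.add w w
  have h2 : w + w = 0 := by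
    funext a
    simp [CharTwo.add_self_eq_zero]
  rw [h2, h.zero, CharTwo.add_self_eq_zero, zero_add] at h1
  exact (mul_eq_zero.mp h1.symm).resolve_left hC

theorem TT_iso (h : QD G C Q) {w : (Fin t → Fin k) → F} (hw : Q w = 1) (x) :
    Q (TT G C w *ᵥ x) = Q x := by
  rw [TT_mulVec, h.add, h.smul, hw, Matrix.mulVec_smul, dotProduct_smul, smul_eq_mul, mul_one]
  have : ∀ b : F, b * b = b ^ 2 := fun b => (sq b).symm
  set b := C * (x ⬝ᵥ (GG G *ᵥ w)) with hb
  have h3 : C * (b * (x ⬝ᵥ (GG G *ᵥ w))) = b * b := by rw [hb]; ring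
  rw [h3, this, add_assoc, CharTwo.add_self_eq_zero, add_zero]

theorem TT_mul_self (h : QD G C Q) (hC : C ≠ 0) (w : (Fin t → Fin k) → F) :
    TT G C w * TT G C w = 1 := by
  apply Matrix.ext_of_mulVec_single
  intro a
  rw [← Matrix.mulVec_mulVec, TT_mulVec, TT_mulVec, Matrix.one_mulVec, add_dotProduct, smul_dotProduct,
    self_form_zero h hC, smul_zero, add_zero, add_assoc, ← add_smul, CharTwo.add_self_eq_zero, zero_smul,
    add_zero]

theorem TT_rank (w : (Fin t → Fin k) → F) : (TT G C w - 1).rank ≤ 1 := by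
  unfold TT
  rw [add_sub_cancel_left]
  exact Matrix.rank_vecMulVec_le _ _

/-- The commutator of two elements of rank one type is of rank at most two type. -/
theorem comm_rank {n : Type*} [Fintype n] [DecidableEq n] {x y : Matrix n n F}
    (hx : (x - 1).rank ≤ 1) (hy : (y - 1).rank ≤ 1) : (x * y * x * y - 1).rank ≤ 2 := by
  have h : x * y * x * y - 1 = (x - 1) * (y * x * y + y) + (y - 1) * (x * y + 1) := by noncomm_ring
  rw [h]
  refine (rank_add_le' _ _).trans ?_
  have h1 := Matrix.rank_mul_le_left (x - 1) (y * x * y + y)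
  have h2 := Matrix.rank_mul_le_left (y - 1) (x * y + 1)
  omega

/-- Existence of a pair of vectors with `Q u = Q v = 1` and polar value one. -/
theorem exists_pair (h : QD G C Q) (hC : C ≠ 0) (hGa : ∀ v : Fin k → F, v ⬝ᵥ (G *ᵥ v) = 0)
    (hGs : Gᵀ = G) {i₀ i₁ : Fin t} (hi : i₀ ≠ i₁) {p p' : Fin k → F} (hp : p ⬝ᵥ (G *ᵥ p') = 1) :
    ∃ u v : (Fin t → Fin k) → F, Q u = 1 ∧ Q v = 1 ∧ C * (u ⬝ᵥ (GG G *ᵥ v)) = 1 ∧ C * (v ⬝ᵥ (GG G *ᵥ u)) = 1 := by
  have hp' : p' ⬝ᵥ (G *ᵥ p) = 1 := by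
    rw [← hp, Matrix.dotProduct_mulVec, ← Matrix.mulVec_transpose, hGs, dotProduct_comm]
  have hsym : ∀ a b : (Fin t → Fin k) → F, a ⬝ᵥ (GG G *ᵥ b) = b ⬝ᵥ (GG G *ᵥ a) := by
    intro a b
    have hT : (GG G : Matrix (Fin t → Fin k) (Fin t → Fin k) F)ᵀ = GG G := by
      unfold GG
      rw [ten_transpose, hGs]
    rw [Matrix.dotProduct_mulVec, ← Matrix.mulVec_transpose, hT, dotProduct_comm]
  let z₁ : (Fin t → Fin k) → F := ptn (fun _ => p)
  let z₂ : (Fin t → Fin k) → F := ptn (fun _ => p')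
  let z₃ : (Fin t → Fin k) → F := ptn (Function.update (fun _ => p) i₁ p')
  let z₄ : (Fin t → Fin k) → F := ptn (Function.update (fun _ => p') i₁ p)
  have h12 : z₁ ⬝ᵥ (GG G *ᵥ z₂) = 1 := by
    unfold GG
    simp only [z₁, z₂]
    rw [form_ptn]
    simp [hp]
  have h11 : z₁ ⬝ᵥ (GG G *ᵥ z₁) = 0 := by
    unfold GG
    simp only [z₁]
    rw [form_ptn]
    exact Finset.prod_eq_zero (Finset.mem_univ i₀) (hGa _)
  have h13 : z₁ ⬝ᵥ (GG G *ᵥ z₃) = 0 := by
    unfold GG
    simp only [z₁, z₃]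
    rw [form_ptn]
    apply Finset.prod_eq_zero (Finset.mem_univ i₀)
    rw [Function.update_of_ne hi]
    exact hGa _
  have h14 : z₁ ⬝ᵥ (GG G *ᵥ z₄) = 0 := by
    unfold GG
    simp only [z₁, z₄]
    rw [form_ptn]
    apply Finset.prod_eq_zero (Finset.mem_univ i₁)
    rw [Function.update_self]
    exact hGa _
  have h23 : z₂ ⬝ᵥ (GG G *ᵥ z₃) = 0 := by
    unfold GG
    simp only [z₂, z₃]
    rw [form_ptn]
    apply Finset.prod_eq_zero (Finset.mem_univ i₁)
    rw [Function.update_self]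
    exact hGa _
  have h24 : z₂ ⬝ᵥ (GG G *ᵥ z₄) = 0 := by
    unfold GG
    simp only [z₂, z₄]
    rw [form_ptn]
    apply Finset.prod_eq_zero (Finset.mem_univ i₀)
    rw [Function.update_of_ne hi]
    exact hGa _
  have h34 : z₃ ⬝ᵥ (GG G *ᵥ z₄) = 1 := by
    unfold GG
    simp only [z₃, z₄]
    rw [form_ptn]
    apply Finset.prod_eq_one
    intro l _
    by_cases hl : l = i₁
    · subst hl
      simp only [Function.update_self]
      exact hp'
    · simp only [Function.update_of_ne hl]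
      exact hp
  have hC' : C * C⁻¹ = 1 := mul_inv_cancel₀ hC
  have hQ34 : Q (z₃ + C⁻¹ • z₄) = 1 := by
    rw [h.add, h.pure, h.smul, h.pure, Matrix.mulVec_smul, dotProduct_smul, h34, smul_eq_mul, mul_one, hC']
    simp
  refine ⟨z₁ + C⁻¹ • z₂, z₁ + (z₃ + C⁻¹ • z₄), ?_, ?_, ?_, ?_⟩
  · rw [h.add, h.pure, h.smul, h.pure, Matrix.mulVec_smul, dotProduct_smul, h12, smul_eq_mul, mul_one, hC']
    simp
  · rw [h.add, h.pure, hQ34, Matrix.mulVec_add, dotProduct_add, h13, Matrix.mulVec_smul, dotProduct_smul, h14]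
    simp
  · simp only [Matrix.mulVec_add, Matrix.mulVec_smul, add_dotProduct, smul_dotProduct, dotProduct_add,
      dotProduct_smul]
    rw [h11, h13, h14, hsym z₂ z₁, h12, h23, h24]
    simp [hC']
  · rw [hsym]
    simp only [Matrix.mulVec_add, Matrix.mulVec_smul, add_dotProduct, smul_dotProduct, dotProduct_add,
      dotProduct_smul]
    rw [h11, h13, h14, hsym z₂ z₁, h12, h23, h24]
    simp [hC']

end Cfsg.Agent.Lib.Classical.TenSpin.Iso
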