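import Mathlib
import Cfsg.Prelude.Def_GeometricClasses
import Cfsg.Agent.Lib.Linalg.IsomRep
import Cfsg.Agent.Lib.Classical.TenSpin.Ten
import Cfsg.Agent.Lib.Classical.TenSpin.Cliff
import Cfsg.Agent.Lib.Classical.TenSpin.Iso

/-!
# The tensor wreath group lies in the normaliser of the Clifford subspace, and that normaliser is a proper
intermediate subgroup of `Ω`.
-/

set_option autoImplicit false

namespace Cfsg.Agent.Lib.Classical.TenSpin.Wreath

open Matrix Ten Cliff Iso

variable {F : Type*} [Field F] {k t : ℕ}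

/-- Normal form of the elements of the tensor wreath group. -/
def IsNF (g : Matrix.GeneralLinearGroup (Fin t → Fin k) F) : Prop :=
  ∃ (gs : Fin t → Matrix.GeneralLinearGroup (Fin k) F) (σ : Equiv.Perm (Fin t)),
    (g : Matrix (Fin t → Fin k) (Fin t → Fin k) F) =
      ten (fun i => (gs i : Matrix (Fin k) (Fin k) F)) * perm σ

theorem ten_gl_inv (gs : Fin t → Matrix.GeneralLinearGroup (Fin k) F) :
    ten (fun i => (gs i : Matrix (Fin k) (Fin k) F)) *
      ten (fun i => ((gs i)⁻¹ : Matrix.GeneralLinearGroup (Fin k) F).val) = 1 := by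
  rw [ten_mul, ← ten_one]
  congr 1
  funext i
  exact (gs i).val_inv

theorem ten_gl_inv' (gs : Fin t → Matrix.GeneralLinearGroup (Fin k) F) :
    ten (fun i => ((gs i)⁻¹ : Matrix.GeneralLinearGroup (Fin k) F).val) *
      ten (fun i => (gs i : Matrix (Fin k) (Fin k) F)) = 1 := by
  rw [ten_mul, ← ten_one]
  congr 1
  funext i
  exact (gs i).inv_val

theorem perm_inv_mul (σ : Equiv.Perm (Fin t)) :
    (perm σ * perm σ⁻¹ : Matrix (Fin t → Fin k) (Fin t → Fin k) F) = 1 := by
  rw [perm_mul, mul_inv_cancel, perm_one]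

/-- The inverse of a normal form. -/
theorem nf_inv {g : Matrix.GeneralLinearGroup (Fin t → Fin k) F}
    {gs : Fin t → Matrix.GeneralLinearGroup (Fin k) F} {σ : Equiv.Perm (Fin t)}
    (h : (g : Matrix (Fin t → Fin k) (Fin t → Fin k) F) =
      ten (fun i => (gs i : Matrix (Fin k) (Fin k) F)) * perm σ) :
    ((g⁻¹ : Matrix.GeneralLinearGroup (Fin t → Fin k) F) : Matrix (Fin t → Fin k) (Fin t → Fin k) F) =
      perm σ⁻¹ * ten (fun i => ((gs i)⁻¹ : Matrix.GeneralLinearGroup (Fin k) F).val) := by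
  have h1 : (g : Matrix (Fin t → Fin k) (Fin t → Fin k) F) *
      (perm σ⁻¹ * ten (fun i => ((gs i)⁻¹ : Matrix.GeneralLinearGroup (Fin k) F).val)) = 1 := by
    rw [h, Matrix.mul_assoc, ← Matrix.mul_assoc (perm σ), perm_inv_mul, Matrix.one_mul, ten_gl_inv]
  calc ((g⁻¹ : Matrix.GeneralLinearGroup (Fin t → Fin k) F) : Matrix (Fin t → Fin k) (Fin t → Fin k) F)
      = ((g⁻¹ : Matrix.GeneralLinearGroup (Fin t → Fin k) F) : Matrix (Fin t → Fin k) (Fin t → Fin k) F) *
        ((g : Matrix (Fin t → Fin k) (Fin t → Fin k) F) *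
          (perm σ⁻¹ * ten (fun i => ((gs i)⁻¹ : Matrix.GeneralLinearGroup (Fin k) F).val))) := by
        rw [h1, Matrix.mul_one]
    _ = _ := by
        rw [← Matrix.mul_assoc, ← Units.val_mul, inv_mul_cancel, Units.val_one, Matrix.one_mul]

theorem nf_of_mem {g : Matrix.GeneralLinearGroup (Fin t → Fin k) F}
    (hg : g ∈ Cfsg.Geo.tensorWreathStandard k t F) : IsNF g := by
  unfold Cfsg.Geo.tensorWreathStandard at hg
  induction hg using Subgroup.closure_induction with
  | mem g hg =>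
    rcases hg with ⟨gs, hgs⟩ | ⟨σ, hσ⟩
    · refine ⟨gs, 1, ?_⟩
      rw [perm_one, Matrix.mul_one]
      ext x y
      exact hgs x y
    · refine ⟨fun _ => 1, σ, ?_⟩
      have : ten (fun i : Fin t => (((fun _ => 1 : Fin t → Matrix.GeneralLinearGroup (Fin k) F) i) :
          Matrix (Fin k) (Fin k) F)) = 1 := by
        simpa using ten_one
      rw [this, Matrix.one_mul]
      ext x y
      exact hσ x y
  | one =>
    refine ⟨fun _ => 1, 1, ?_⟩
    have : ten (fun i : Fin t => (((fun _ => 1 : Fin t → Matrix.GeneralLinearGroup (Fin k) F) i) :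
        Matrix (Fin k) (Fin k) F)) = 1 := by
      simpa using ten_one
    rw [this, perm_one, Matrix.one_mul, Units.val_one]
  | mul a b _ _ ha hb =>
    obtain ⟨gs, σ, ha⟩ := ha
    obtain ⟨hs, ρ, hb⟩ := hb
    refine ⟨fun i => gs i * hs (σ⁻¹ i), σ * ρ, ?_⟩
    rw [Units.val_mul, ha, hb, ← perm_mul, Matrix.mul_assoc, ← Matrix.mul_assoc (perm σ), perm_mul_ten,
      Matrix.mul_assoc, ← Matrix.mul_assoc, ← Matrix.mul_assoc, ten_mul]
    simp only [Units.val_mul, Matrix.mul_assoc]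
  | inv a _ ha =>
    obtain ⟨gs, σ, ha⟩ := ha
    refine ⟨fun i => (gs (σ⁻¹⁻¹ i))⁻¹, σ⁻¹, ?_⟩
    rw [nf_inv ha, perm_mul_ten]

/-- Conjugating a single `tau` by a normal form. -/
theorem nf_conj_tau (gs : Fin t → Matrix.GeneralLinearGroup (Fin k) F) (σ : Equiv.Perm (Fin t)) (i : Fin t)
    (A : Matrix (Fin k) (Fin k) F) :
    (ten (fun i => (gs i : Matrix (Fin k) (Fin k) F)) * perm σ) * tau i A *
      (perm σ⁻¹ * ten (fun i => ((gs i)⁻¹ : Matrix.GeneralLinearGroup (Fin k) F).val)) =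
    tau (σ i) ((gs (σ i)).val * A * ((gs (σ i))⁻¹ : Matrix.GeneralLinearGroup (Fin k) F).val) := by
  have h1 : ten (fun i => (gs i : Matrix (Fin k) (Fin k) F)) * tau (σ i) A =
      tau (σ i) ((gs (σ i)).val * A * ((gs (σ i))⁻¹ : Matrix.GeneralLinearGroup (Fin k) F).val) *
        ten (fun i => (gs i : Matrix (Fin k) (Fin k) F)) := by
    apply ten_mul_tau
    rw [Matrix.mul_assoc _ _ (gs (σ i)).val, Matrix.mul_assoc]
    have : ((gs (σ i))⁻¹ : Matrix.GeneralLinearGroup (Fin k) F).val * (gs (σ i)).val = 1 := (gs (σ i)).inv_val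
    rw [this, Matrix.mul_one]
  calc (ten (fun i => (gs i : Matrix (Fin k) (Fin k) F)) * perm σ) * tau i A *
      (perm σ⁻¹ * ten (fun i => ((gs i)⁻¹ : Matrix.GeneralLinearGroup (Fin k) F).val))
      = ten (fun i => (gs i : Matrix (Fin k) (Fin k) F)) * (perm σ * tau i A) *
        (perm σ⁻¹ * ten (fun i => ((gs i)⁻¹ : Matrix.GeneralLinearGroup (Fin k) F).val)) := by
        simp only [Matrix.mul_assoc]
    _ = (ten (fun i => (gs i : Matrix (Fin k) (Fin k) F)) * tau (σ i) A) * (perm σ * perm σ⁻¹) *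
        ten (fun i => ((gs i)⁻¹ : Matrix.GeneralLinearGroup (Fin k) F).val) := by
        rw [perm_mul_tau]
        simp only [Matrix.mul_assoc]
    _ = _ := by
        rw [perm_inv_mul, Matrix.mul_one, h1, Matrix.mul_assoc, ten_gl_inv, Matrix.mul_one]

/-- Conjugating an element of `L` by a normal form whose factors normalise `Sub`. -/
theorem nf_conj_mem {Sub : Submodule F (Matrix (Fin k) (Fin k) F)} [CharP F 2]
    (gs : Fin t → Matrix.GeneralLinearGroup (Fin k) F) (σ : Equiv.Perm (Fin t))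
    (hgs : ∀ i, ∀ A ∈ Sub, (gs i).val * A * ((gs i)⁻¹ : Matrix.GeneralLinearGroup (Fin k) F).val ∈ Sub)
    {y : Matrix (Fin t → Fin k) (Fin t → Fin k) F} (hy : y ∈ LL Sub) :
    (ten (fun i => (gs i : Matrix (Fin k) (Fin k) F)) * perm σ) * y *
      (perm σ⁻¹ * ten (fun i => ((gs i)⁻¹ : Matrix.GeneralLinearGroup (Fin k) F).val)) ∈ LL Sub := by
  obtain ⟨A, hA, rfl⟩ := hy
  rw [Finset.mul_sum, Finset.sum_mul]
  simp only [nf_conj_tau]
  refine ⟨fun j => (gs j).val * A (σ⁻¹ j) * ((gs j)⁻¹ : Matrix.GeneralLinearGroup (Fin k) F).val,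
    fun j => hgs j _ (hA _), ?_⟩
  calc ∑ i, tau (σ i) ((gs (σ i)).val * A i * ((gs (σ i))⁻¹ : Matrix.GeneralLinearGroup (Fin k) F).val)
      = ∑ i, (fun j => tau j ((gs j).val * A (σ⁻¹ j) * ((gs j)⁻¹ : Matrix.GeneralLinearGroup (Fin k) F).val)) (σ i) := by
        apply Finset.sum_congr rfl
        intro i _
        have : σ⁻¹ (σ i) = i := by simp
        simp only [this]
    _ = _ := Equiv.sum_comp σ (fun j => tau j ((gs j).val * A (σ⁻¹ j) * ((gs j)⁻¹ : Matrix.GeneralLinearGroup (Fin k) F).val))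

/-- The Kronecker cancellation. -/
theorem kron_cancel {G : Matrix (Fin k) (Fin k) F} (hG : G ≠ 0) {A : Fin t → Matrix (Fin k) (Fin k) F}
    (h : ten A = ten (fun _ => G)) (i : Fin t) : ∃ c : F, c ≠ 0 ∧ A i = c • G := by
  obtain ⟨p, q, hpq⟩ : ∃ p q, G p q ≠ 0 := by
    by_contra hcon
    push Not at hcon
    exact hG (Matrix.ext hcon)
  have key : ∀ u v, A i u v * ∏ j ∈ Finset.univ.erase i, A j p q =
      G u v * ∏ j ∈ Finset.univ.erase i, G p q := by
    intro u v
    have h1 := congrFun (congrFun h (Function.update (fun _ => p) i u)) (Function.update (fun _ => q) i v)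
    rw [ten_apply, ten_apply, ← Finset.mul_prod_erase _ _ (Finset.mem_univ i),
      ← Finset.mul_prod_erase _ _ (Finset.mem_univ i)] at h1
    simp only [Function.update_self] at h1
    rw [Finset.prod_congr rfl (g := fun j => A j p q), Finset.prod_congr rfl (f := fun j => G _ _)
      (g := fun _ => G p q)] at h1
    · exact h1
    · intro j hj
      have hj' := Finset.ne_of_mem_erase hj
      simp only [Function.update_of_ne hj']
    · intro j hj
      have hj' := Finset.ne_of_mem_erase hj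
      simp only [Function.update_of_ne hj']
  have hβ : (∏ j ∈ Finset.univ.erase i, G p q) ≠ 0 := Finset.prod_ne_zero_iff.mpr (fun _ _ => hpq)
  have hα : (∏ j ∈ Finset.univ.erase i, A j p q) ≠ 0 := by
    intro h0
    have := key p q
    rw [h0, mul_zero] at this
    exact mul_ne_zero hpq hβ this.symm
  refine ⟨(∏ j ∈ Finset.univ.erase i, G p q) * (∏ j ∈ Finset.univ.erase i, A j p q)⁻¹,
    mul_ne_zero hβ (inv_ne_zero hα), ?_⟩
  ext u v
  rw [Matrix.smul_apply, smul_eq_mul]
  have := key u v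
  field_simp
  rw [this]
  ring

theorem matrix_eq_of_form {n : Type*} [Fintype n] [DecidableEq n] {M M' : Matrix n n F}
    (h : ∀ u v : n → F, u ⬝ᵥ (M *ᵥ v) = u ⬝ᵥ (M' *ᵥ v)) : M = M' := by
  ext a b
  have := h (Pi.single a 1) (Pi.single b 1)
  simpa [Matrix.mulVec_single_one, Matrix.col_apply] using this

/-- An isometry of `Q` preserves the tensor power of `G` . -/
theorem pres_of_iso [CharP F 2] {G : Matrix (Fin k) (Fin k) F} {C : F} {Q : ((Fin t → Fin k) → F) → F}
    (h : QD G C Q) (hC : C ≠ 0) {x : Matrix (Fin t → Fin k) (Fin t → Fin k) F}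
    (hx : ∀ v, Q (x *ᵥ v) = Q v) : xᵀ * GG G * x = GG G := by
  apply matrix_eq_of_form
  intro u v
  rw [← dot_mulVec_mulVec]
  have h1 := h.add (x *ᵥ u) (x *ᵥ v)
  rw [← Matrix.mulVec_add, hx, hx, hx, h.add] at h1
  have h2 : C * (u ⬝ᵥ (GG G *ᵥ v)) = C * ((x *ᵥ u) ⬝ᵥ (GG G *ᵥ (x *ᵥ v))) := add_left_cancel h1
  exact (mul_left_cancel₀ hC h2).symm

/-- The factors of a normal form preserving the tensor power of `G` are similarities of `G`. -/
theorem factors_sim {G : Matrix (Fin k) (Fin k) F} (hG : G ≠ 0)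
    (gs : Fin t → Matrix.GeneralLinearGroup (Fin k) F) (σ : Equiv.Perm (Fin t))
    (h : (ten (fun i => (gs i : Matrix (Fin k) (Fin k) F)) * perm σ)ᵀ * GG G *
      (ten (fun i => (gs i : Matrix (Fin k) (Fin k) F)) * perm σ) = GG G) (i : Fin t) :
    ∃ c : F, c ≠ 0 ∧ ((gs i).val)ᵀ * G * (gs i).val = c • G := by
  have hcomm : (perm σ : Matrix (Fin t → Fin k) (Fin t → Fin k) F) * GG G = GG G * perm σ := by
    unfold GG
    rw [perm_mul_ten]
  have h1 : (ten (fun i => (gs i : Matrix (Fin k) (Fin k) F)))ᵀ * GG G *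
      ten (fun i => (gs i : Matrix (Fin k) (Fin k) F)) = GG G := by
    obtain ⟨D, hD⟩ : ∃ D, D = (ten (fun i => (gs i : Matrix (Fin k) (Fin k) F)))ᵀ * GG G *
        ten (fun i => (gs i : Matrix (Fin k) (Fin k) F)) := ⟨_, rfl⟩
    rw [← hD]
    have h' : perm σ⁻¹ * D * perm σ = GG G := by
      rw [← h, Matrix.transpose_mul, perm_transpose, hD]
      simp only [Matrix.mul_assoc]
    calc D = (perm σ * perm σ⁻¹) * D * (perm σ * perm σ⁻¹) := by
          rw [perm_inv_mul, Matrix.one_mul, Matrix.mul_one]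
      _ = perm σ * (perm σ⁻¹ * D * perm σ) * perm σ⁻¹ := by simp only [Matrix.mul_assoc]
      _ = perm σ * GG G * perm σ⁻¹ := by rw [h']
      _ = GG G := by rw [hcomm, Matrix.mul_assoc, perm_inv_mul, Matrix.mul_one]
  rw [ten_transpose] at h1
  unfold GG at h1
  rw [ten_mul, ten_mul] at h1
  exact kron_cancel hG h1 i

end Cfsg.Agent.Lib.Classical.TenSpin.Wreath
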