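import Mathlib
import Cfsg.Prelude.Def_GeometricClasses
import Cfsg.Agent.Lib.Linalg.IsomRep
import Cfsg.Agent.Lib.Classical.TenSpin.Ten
import Cfsg.Agent.Lib.Classical.TenSpin.Cliff
import Cfsg.Agent.Lib.Classical.TenSpin.Iso
import Cfsg.Agent.Lib.Classical.TenSpin.Wreath

/-!
# The normaliser in `Ω` of the Clifford subspace is an intermediate subgroup
-/

set_option autoImplicit false

namespace Cfsg.Agent.Lib.Classical.TenSpin.Main

open Matrix Ten Cliff Iso Wreath
open scoped commutatorElement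

variable {F : Type*} [Field F] [CharP F 2] {k t : ℕ}

/-- What is needed of the subspace `Sub` of `M_k(F)`. -/
structure SubData (G : Matrix (Fin k) (Fin k) F) (t : ℕ) (Sub : Submodule F (Matrix (Fin k) (Fin k) F))
    (s e : Matrix (Fin k) (Fin k) F) : Prop where
  one_mem : (1 : Matrix (Fin k) (Fin k) F) ∈ Sub
  sq : ∀ A ∈ Sub, ∃ c : F, A * A = c • (1 : Matrix (Fin k) (Fin k) F)
  inv : ∀ A ∈ Sub, (∃ c : F, A = c • (1 : Matrix (Fin k) (Fin k) F)) ∨
    ∃ B : Matrix (Fin k) (Fin k) F, A * B + B * A = 1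
  conj : ∀ (g : Matrix.GeneralLinearGroup (Fin k) F) (c : F), c ≠ 0 → (g.val)ᵀ * G * g.val = c • G →
    ∀ A ∈ Sub, g.val * A * ((g⁻¹ : Matrix.GeneralLinearGroup (Fin k) F).val) ∈ Sub
  s_mem : s ∈ Sub
  e_mem : e ∈ Sub
  ss : s * s = 1
  ee : e * e = 0
  se : s * e + e * s = 1
  s_adj : sᵀ * G = G * s
  e_adj : eᵀ * G = G * e
  alt : 3 ≤ t ∨ ∀ v : Fin k → F, v ⬝ᵥ ((G * s) *ᵥ v) = 0

/-- The stabiliser of the subspace `L` under conjugation. -/
def NN (Sub : Submodule F (Matrix (Fin k) (Fin k) F)) :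
    Subgroup (Matrix.GeneralLinearGroup (Fin t → Fin k) F) where
  carrier := {g | ∀ y, y ∈ LL Sub ↔ g.val * y * ((g⁻¹ : Matrix.GeneralLinearGroup (Fin t → Fin k) F).val) ∈ LL Sub}
  mul_mem' := by
    intro a b ha hb y
    rw [hb y, ha]
    have : (a * b).val * y * (((a * b)⁻¹ : Matrix.GeneralLinearGroup (Fin t → Fin k) F).val) =
        a.val * (b.val * y * ((b⁻¹ : Matrix.GeneralLinearGroup (Fin t → Fin k) F).val)) *
          ((a⁻¹ : Matrix.GeneralLinearGroup (Fin t → Fin k) F).val) := by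
      rw [_root_.mul_inv_rev, Units.val_mul, Units.val_mul]
      simp only [Matrix.mul_assoc]
    rw [this]
  one_mem' := by
    intro y
    simp
  inv_mem' := by
    intro a ha y
    have h := ha (((a⁻¹ : Matrix.GeneralLinearGroup (Fin t → Fin k) F).val) * y * a.val)
    have h1 : a.val * (((a⁻¹ : Matrix.GeneralLinearGroup (Fin t → Fin k) F).val) * y * a.val) *
        ((a⁻¹ : Matrix.GeneralLinearGroup (Fin t → Fin k) F).val) = y := by
      have e1 : a.val * ((a⁻¹ : Matrix.GeneralLinearGroup (Fin t → Fin k) F).val) = 1 := a.val_inv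
      calc _ = (a.val * ((a⁻¹ : Matrix.GeneralLinearGroup (Fin t → Fin k) F).val)) * y *
            (a.val * ((a⁻¹ : Matrix.GeneralLinearGroup (Fin t → Fin k) F).val)) := by
            simp only [Matrix.mul_assoc]
        _ = y := by rw [e1, Matrix.one_mul, Matrix.mul_one]
    rw [h1] at h
    rw [inv_inv]
    exact h.symm

theorem mem_NN {Sub : Submodule F (Matrix (Fin k) (Fin k) F)}
    {g : Matrix.GeneralLinearGroup (Fin t → Fin k) F} :
    g ∈ NN Sub ↔ ∀ y, y ∈ LL Sub ↔ g.val * y * ((g⁻¹ : Matrix.GeneralLinearGroup (Fin t → Fin k) F).val) ∈ LL Sub :=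
  Iff.rfl

/-- An involution in `GL`. -/
def unitOf {n : Type} [Fintype n] [DecidableEq n] (y : Matrix n n F) (h : y * y = 1) :
    Matrix.GeneralLinearGroup n F :=
  ⟨y, y, h, h⟩

omit [CharP F 2] in
theorem comm_mem_omega {n : Type} [Fintype n] [DecidableEq n] {Q : (n → F) → F}
    {x y : Matrix.GeneralLinearGroup n F} (hx : x ∈ Cfsg.isometryGroup F Q)
    (hy : y ∈ Cfsg.isometryGroup F Q) : ⁅x, y⁆ ∈ Cfsg.Geo.omegaGL Q := by
  refine ⟨⁅(⟨x, hx⟩ : Cfsg.isometryGroup F Q), ⟨y, hy⟩⁆, ?_, rfl⟩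
  exact Subgroup.commutator_mem_commutator (Subgroup.mem_top _) (Subgroup.mem_top _)

omit [CharP F 2] in
theorem iso_of_mem_omega {n : Type} [Fintype n] [DecidableEq n] {Q : (n → F) → F}
    {g : Matrix.GeneralLinearGroup n F} (hg : g ∈ Cfsg.Geo.omegaGL Q) :
    g ∈ Cfsg.isometryGroup F Q := by
  obtain ⟨g', _, rfl⟩ := hg
  exact g'.2

theorem one_add_sq {R : Type*} [Ring R] {a : R} (h2 : a + a = 0) (h : a * a = 0) :
    (1 + a) * (1 + a) = 1 := by
  calc (1 + a) * (1 + a) = 1 + (a + a) + a * a := by noncomm_ring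
    _ = 1 := by rw [h2, h]; simp

/-- The braid relation. -/
theorem braid {R : Type*} [Ring R] {a b : R} (h2 : ∀ x : R, x + x = 0) (ha : a * a = 0) (hb : b * b = 0)
    (hab : a * b + b * a = 1) :
    (1 + a) * (1 + b) * (1 + a) = (1 + b) * (1 + a) * (1 + b) := by
  have h1 : b * a = 1 - a * b := by rw [← hab]; abel
  have h3 : a * b * a = a := by
    rw [mul_assoc, h1, mul_sub, mul_one, ← mul_assoc a a b, ha, zero_mul, sub_zero]
  have h4 : b * a * b = b := by
    have h5 : a * b = 1 - b * a := by rw [← hab]; abel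
    rw [mul_assoc, h5, mul_sub, mul_one, ← mul_assoc b b a, hb, zero_mul, sub_zero]
  have e1 : (1 + a) * (1 + b) * (1 + a) = 1 + (a + a) + b + (a * b + b * a) + a * a + a * b * a := by
    noncomm_ring
  have e2 : (1 + b) * (1 + a) * (1 + b) = 1 + (b + b) + a + (a * b + b * a) + b * b + b * a * b := by
    noncomm_ring
  rw [e1, e2, h2 a, h2 b, hab, ha, hb, h3, h4]
  abel

theorem bracket_two {i₀ i₁ j : Fin t} (hi : i₀ ≠ i₁) (hj : j = i₀ ∨ j = i₁) {s e : Matrix (Fin k) (Fin k) F}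
    (hse : s * e + e * s = 1) :
    (tau i₀ s + tau i₁ s) * tau j e + tau j e * (tau i₀ s + tau i₁ s) = 1 := by
  have h : (tau i₀ s + tau i₁ s) * tau j e + tau j e * (tau i₀ s + tau i₁ s) =
      (tau i₀ s * tau j e + tau j e * tau i₀ s) + (tau i₁ s * tau j e + tau j e * tau i₁ s) := by
    noncomm_ring
  rw [h]
  rcases hj with rfl | rfl
  · rw [tau_comm hi.symm s e, add_self_matrix, add_zero, tau_mul, tau_mul, ← tau_add, hse, tau_one]
  · rw [tau_comm hi s e, add_self_matrix, zero_add, tau_mul, tau_mul, ← tau_add, hse, tau_one]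

/-- Elements of the wreath group preserving `Q` normalise `L`. -/
theorem wreath_conj {G : Matrix (Fin k) (Fin k) F} (hG : G ≠ 0) {C : F} (hC : C ≠ 0)
    {Q : ((Fin t → Fin k) → F) → F} (hQ : QD G C Q)
    {Sub : Submodule F (Matrix (Fin k) (Fin k) F)} {s e : Matrix (Fin k) (Fin k) F}
    (D : SubData G t Sub s e) {g : Matrix.GeneralLinearGroup (Fin t → Fin k) F}
    (hW : g ∈ Cfsg.Geo.tensorWreathStandard k t F) (hI : g ∈ Cfsg.isometryGroup F Q)
    {y : Matrix (Fin t → Fin k) (Fin t → Fin k) F} (hy : y ∈ LL Sub) :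
    g.val * y * ((g⁻¹ : Matrix.GeneralLinearGroup (Fin t → Fin k) F).val) ∈ LL Sub := by
  obtain ⟨gs, σ, hval⟩ := nf_of_mem hW
  have hinv := nf_inv hval
  rw [hinv, hval]
  apply nf_conj_mem gs σ _ hy
  intro i A hA
  have hp := pres_of_iso hQ hC (x := g.val) (Cfsg.Agent.Lib.Linalg.IsomRep.mem_isometryGroup.mp hI)
  rw [hval] at hp
  obtain ⟨c, hc, hc'⟩ := factors_sim hG gs σ hp i
  exact D.conj (gs i) c hc hc' A hA

/-- Containment of the wreath part. -/
theorem wreath_le {G : Matrix (Fin k) (Fin k) F} (hG : G ≠ 0) {C : F} (hC : C ≠ 0)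
    {Q : ((Fin t → Fin k) → F) → F} (hQ : QD G C Q)
    {Sub : Submodule F (Matrix (Fin k) (Fin k) F)} {s e : Matrix (Fin k) (Fin k) F}
    (D : SubData G t Sub s e) {g : Matrix.GeneralLinearGroup (Fin t → Fin k) F}
    (hW : g ∈ Cfsg.Geo.tensorWreathStandard k t F) (hI : g ∈ Cfsg.isometryGroup F Q) :
    g ∈ NN Sub := by
  intro y
  constructor
  · exact wreath_conj hG hC hQ D hW hI
  · intro h
    have h1 := wreath_conj hG hC hQ D (inv_mem hW) (inv_mem hI) h
    have e1 : ((g⁻¹ : Matrix.GeneralLinearGroup (Fin t → Fin k) F).val) * g.val = 1 := g.inv_val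
    have h2 : ((g⁻¹ : Matrix.GeneralLinearGroup (Fin t → Fin k) F).val) *
        (g.val * y * ((g⁻¹ : Matrix.GeneralLinearGroup (Fin t → Fin k) F).val)) *
        (((g⁻¹)⁻¹ : Matrix.GeneralLinearGroup (Fin t → Fin k) F).val) = y := by
      rw [inv_inv]
      calc _ = (((g⁻¹ : Matrix.GeneralLinearGroup (Fin t → Fin k) F).val) * g.val) * y *
            (((g⁻¹ : Matrix.GeneralLinearGroup (Fin t → Fin k) F).val) * g.val) := by
            simp only [Matrix.mul_assoc]
        _ = y := by rw [e1, Matrix.one_mul, Matrix.mul_one]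
    rwa [h2] at h1

/-- `1 + a` normalises `L`. -/
theorem one_add_mem_NN {Sub : Submodule F (Matrix (Fin k) (Fin k) F)} (i₀ : Fin t)
    (h1 : (1 : Matrix (Fin k) (Fin k) F) ∈ Sub)
    (hsq : ∀ A ∈ Sub, ∃ c : F, A * A = c • (1 : Matrix (Fin k) (Fin k) F))
    {a : Matrix (Fin t → Fin k) (Fin t → Fin k) F} (ha : a ∈ LL Sub) (haa : a * a = 0)
    (h2 : (1 + a) * (1 + a) = 1) : unitOf (1 + a) h2 ∈ NN Sub := by
  intro y
  change y ∈ LL Sub ↔ (1 + a) * y * (1 + a) ∈ LL Sub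
  constructor
  · exact one_add_conj_mem i₀ h1 hsq ha haa
  · intro h
    have h3 := one_add_conj_mem i₀ h1 hsq ha haa h
    have h4 : (1 + a) * ((1 + a) * y * (1 + a)) * (1 + a) = y := by
      calc _ = ((1 + a) * (1 + a)) * y * ((1 + a) * (1 + a)) := by simp only [Matrix.mul_assoc]
        _ = y := by rw [h2, Matrix.one_mul, Matrix.mul_one]
    rwa [h4] at h3

/-- The elements `1 + tau i e` lie in the wreath group. -/
theorem one_add_tau_mem {i : Fin t} {e : Matrix (Fin k) (Fin k) F} (hee : e * e = 0)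
    (h2 : (1 + tau i e) * (1 + tau i e) = 1) :
    unitOf (1 + tau i e) h2 ∈ Cfsg.Geo.tensorWreathStandard k t F := by
  have h3 : (1 + e) * (1 + e) = 1 := one_add_sq (add_self_matrix e) hee
  apply Subgroup.subset_closure
  left
  refine ⟨Function.update (fun _ => 1) i (unitOf (1 + e) h3), ?_⟩
  intro x y
  change (1 + tau i e) x y = _
  have h4 : (1 + tau i e : Matrix (Fin t → Fin k) (Fin t → Fin k) F) = tau i (1 + e) := by
    rw [tau_add, tau_one]
  rw [h4]
  unfold tau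
  rw [ten_apply]
  apply Finset.prod_congr rfl
  intro l _
  by_cases hl : l = i
  · subst hl
    simp only [Function.update_self]
    rfl
  · simp only [Function.update_of_ne hl]
    rfl

/-- The commutator of `1 + a` and `1 + b` is not in the wreath group. -/
theorem comm_not_wreath {i₀ i₁ : Fin t} (hi : i₀ ≠ i₁) [Nonempty (Fin t → Fin k)]
    {s e : Matrix (Fin k) (Fin k) F} (hss : s * s = 1) (hee : e * e = 0) (hse : s * e + e * s = 1)
    {a b : Matrix (Fin t → Fin k) (Fin t → Fin k) F} (hadef : a = tau i₀ s + tau i₁ s) (hbdef : b = tau i₀ e)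
    (haa : a * a = 0) (hbb : b * b = 0)
    (h2a : (1 + a) * (1 + a) = 1) (h2b : (1 + b) * (1 + b) = 1) :
    ⁅unitOf (1 + a) h2a, unitOf (1 + b) h2b⁆ ∉ Cfsg.Geo.tensorWreathStandard k t F := by
  intro hcomm
  have hx₂ : unitOf (1 + b) h2b ∈ Cfsg.Geo.tensorWreathStandard k t F := by
    subst hbdef
    exact one_add_tau_mem hee h2b
  have hab : a * b + b * a = 1 := by
    rw [hadef, hbdef]
    exact bracket_two hi (Or.inl rfl) hse
  obtain ⟨x₁, hx₁⟩ : ∃ x₁, x₁ = unitOf (1 + a) h2a := ⟨_, rfl⟩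
  obtain ⟨x₂, hx₂'⟩ : ∃ x₂, x₂ = unitOf (1 + b) h2b := ⟨_, rfl⟩
  rw [← hx₁, ← hx₂'] at hcomm
  rw [← hx₂'] at hx₂
  have hx₁inv : x₁⁻¹ = x₁ := by
    rw [hx₁]
    rfl
  have hx₂inv : x₂⁻¹ = x₂ := by
    rw [hx₂']
    rfl
  have hbr : x₁ * x₂ * x₁ = x₂ * x₁ * x₂ := by
    apply Units.ext
    rw [hx₁, hx₂']
    exact braid add_self_matrix haa hbb hab
  have h1 : x₁ * x₂ * x₁ ∈ Cfsg.Geo.tensorWreathStandard k t F := by
    have : x₁ * x₂ * x₁ = ⁅x₁, x₂⁆ * x₂ := by
      rw [commutatorElement_def, hx₁inv, hx₂inv]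
      have : x₂ * x₂ = 1 := by
        nth_rewrite 1 [← hx₂inv]
        exact inv_mul_cancel x₂
      rw [mul_assoc _ x₂ x₂, this, mul_one]
    rw [this]
    exact mul_mem hcomm hx₂
  rw [hbr] at h1
  have h3 : x₁ ∈ Cfsg.Geo.tensorWreathStandard k t F := by
    have : x₁ = x₂⁻¹ * (x₂ * x₁ * x₂) * x₂⁻¹ := by group
    rw [this]
    exact mul_mem (mul_mem (inv_mem hx₂) h1) (inv_mem hx₂)
  obtain ⟨gs, σ, hval⟩ := nf_of_mem h3
  have hinv := nf_inv hval
  have hconj := nf_conj_tau gs σ i₀ e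
  rw [← hval, ← hinv, hx₁inv, hx₁] at hconj
  change (1 + a) * tau i₀ e * (1 + a) = _ at hconj
  rw [← hbdef] at hconj
  have hW : (1 + a) * b * (1 + a) = b + 1 + a := by
    have h5 : b * a = 1 - a * b := by rw [← hab]; abel
    have h6 : a * b * a = a := by
      rw [mul_assoc, h5, mul_sub, mul_one, ← mul_assoc a a b, haa, zero_mul, sub_zero]
    calc (1 + a) * b * (1 + a) = b + (a * b + b * a) + a * b * a := by noncomm_ring
      _ = b + 1 + a := by rw [hab, h6]
  rw [hW] at hconj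
  obtain ⟨j, hj, hjσ⟩ : ∃ j, (j = i₀ ∨ j = i₁) ∧ σ i₀ ≠ j := by
    by_cases h : σ i₀ = i₀
    · exact ⟨i₁, Or.inr rfl, by rw [h]; exact hi⟩
    · exact ⟨i₀, Or.inl rfl, h⟩
  -- brackets with `tau j e`
  have hbr1 : (b + 1 + a) * tau j e + tau j e * (b + 1 + a) = 0 := by
    rw [hconj, tau_comm hjσ, add_self_matrix]
  have hbr2 : (b + 1 + a) * tau j e + tau j e * (b + 1 + a) =
      (b * tau j e + tau j e * b) + (tau j e + tau j e) + (a * tau j e + tau j e * a) := by
    noncomm_ring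
  have hbr3 : b * tau j e + tau j e * b = 0 := by
    rw [hbdef]
    rcases hj with rfl | rfl
    · exact add_self_matrix _
    · rw [tau_comm hi, add_self_matrix]
  have hbr4 : a * tau j e + tau j e * a = 1 := by
    rw [hadef]
    exact bracket_two hi hj hse
  rw [hbr2, hbr3, add_self_matrix, hbr4, add_zero, zero_add] at hbr1
  exact one_ne_zero hbr1

/-- The low rank element does not normalise `L`. -/
theorem low_rank_not_NN {G : Matrix (Fin k) (Fin k) F} {C : F} (hC : C ≠ 0)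
    {Q : ((Fin t → Fin k) → F) → F} (hQ : QD G C Q)
    {Sub : Submodule F (Matrix (Fin k) (Fin k) F)} {s e : Matrix (Fin k) (Fin k) F}
    (D : SubData G t Sub s e) {i₀ i₁ : Fin t} (hi : i₀ ≠ i₁)
    (hcard : 8 < Fintype.card (Fin t → Fin k))
    {u v : (Fin t → Fin k) → F} (hu : Q u = 1) (huv : C * (u ⬝ᵥ (GG G *ᵥ v)) = 1)
    (hvu : C * (v ⬝ᵥ (GG G *ᵥ u)) = 1)
    (h2u : TT G C u * TT G C u = 1) (h2v : TT G C v * TT G C v = 1) :
    ⁅unitOf (TT G C u) h2u, unitOf (TT G C v) h2v⁆ ∉ NN Sub := by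
  intro hN
  obtain ⟨g, hg⟩ : ∃ g, g = ⁅unitOf (TT G C u) h2u, unitOf (TT G C v) h2v⁆ := ⟨_, rfl⟩
  rw [← hg] at hN
  have hgval : g.val = TT G C u * TT G C v * TT G C u * TT G C v := by
    rw [hg, commutatorElement_def]
    rfl
  have hginv : ((g⁻¹ : Matrix.GeneralLinearGroup (Fin t → Fin k) F).val) =
      TT G C v * TT G C u * TT G C v * TT G C u := by
    rw [hg, commutatorElement_inv, commutatorElement_def]
    rfl
  have hr1 : (g.val - 1).rank ≤ 2 := by
    rw [hgval]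
    exact comm_rank (TT_rank u) (TT_rank v)
  have hr2 : (((g⁻¹ : Matrix.GeneralLinearGroup (Fin t → Fin k) F).val) - 1).rank ≤ 2 := by
    rw [hginv]
    exact comm_rank (TT_rank v) (TT_rank u)
  -- `g` commutes with `L`
  have hcomm : ∀ y ∈ LL Sub, (g.val - 1) * y = y * (g.val - 1) := by
    intro y hy
    have h1 := (hN y).1 hy
    have h2 : g.val * y * ((g⁻¹ : Matrix.GeneralLinearGroup (Fin t → Fin k) F).val) - y ∈ LL Sub :=
      (LL Sub).sub_mem h1 hy
    have h3 : g.val * y * ((g⁻¹ : Matrix.GeneralLinearGroup (Fin t → Fin k) F).val) - y = 0 := by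
      by_contra hne
      have h4 := rank_LL D.inv h2 hne
      have h5 : g.val * y * ((g⁻¹ : Matrix.GeneralLinearGroup (Fin t → Fin k) F).val) - y =
          (g.val - 1) * (y * ((g⁻¹ : Matrix.GeneralLinearGroup (Fin t → Fin k) F).val)) +
            y * (((g⁻¹ : Matrix.GeneralLinearGroup (Fin t → Fin k) F).val) - 1) := by
        noncomm_ring
      rw [h5] at h4
      have h6 := rank_add_le' ((g.val - 1) * (y * ((g⁻¹ : Matrix.GeneralLinearGroup (Fin t → Fin k) F).val)))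
        (y * (((g⁻¹ : Matrix.GeneralLinearGroup (Fin t → Fin k) F).val) - 1))
      have h7 := Matrix.rank_mul_le_left (g.val - 1) (y * ((g⁻¹ : Matrix.GeneralLinearGroup (Fin t → Fin k) F).val))
      have h8 := Matrix.rank_mul_le_right y (((g⁻¹ : Matrix.GeneralLinearGroup (Fin t → Fin k) F).val) - 1)
      omega
    have h4 : g.val * y * ((g⁻¹ : Matrix.GeneralLinearGroup (Fin t → Fin k) F).val) = y := sub_eq_zero.mp h3
    have h5 : g.val * y = y * g.val := by
      calc g.val * y = g.val * y * (((g⁻¹ : Matrix.GeneralLinearGroup (Fin t → Fin k) F).val) * g.val) := by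
            have e0 : ((g⁻¹ : Matrix.GeneralLinearGroup (Fin t → Fin k) F).val) * g.val = 1 := g.inv_val
            rw [e0, Matrix.mul_one]
        _ = (g.val * y * ((g⁻¹ : Matrix.GeneralLinearGroup (Fin t → Fin k) F).val)) * g.val := by
            simp only [Matrix.mul_assoc]
        _ = y * g.val := by rw [h4]
    rw [Matrix.sub_mul, Matrix.mul_sub, h5, Matrix.one_mul, Matrix.mul_one]
  have hmem : ∀ {i : Fin t} {A : Matrix (Fin k) (Fin k) F}, A ∈ Sub → tau i A ∈ LL Sub :=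
    fun {i} {A} h => tau_mem_LL i h
  have hR : g.val - 1 = 0 := by
    apply low_rank_comm (a₁ := tau i₀ e) (b₁ := tau i₀ s) (a₂ := tau i₁ e) (b₂ := tau i₁ s) hr1
    · rw [tau_mul, D.ee, tau_zero]
    · rw [tau_mul, D.ee, tau_zero]
    · rw [tau_mul, tau_mul, ← tau_add, add_comm, D.se, tau_one]
    · rw [tau_mul, tau_mul, ← tau_add, add_comm, D.se, tau_one]
    · exact tau_comm hi _ _
    · exact tau_comm hi _ _
    · exact tau_comm hi.symm _ _
    · exact hcomm _ (hmem D.e_mem)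
    · exact hcomm _ (hmem D.e_mem)
    · exact hcomm _ (hmem D.s_mem)
    · exact hcomm _ (hmem D.s_mem)
  have hg1 : g = 1 := by
    apply Units.ext
    rw [Units.val_one]
    exact sub_eq_zero.mp hR
  rw [hg, commutatorElement_eq_one_iff_mul_comm] at hg1
  have hc : TT G C u * TT G C v = TT G C v * TT G C u := congrArg Units.val hg1
  have hu0 : u ≠ 0 := by
    rintro rfl
    rw [hQ.zero] at hu
    exact zero_ne_one hu
  have huu := self_form_zero hQ hC u
  have huu' : u + u = 0 := by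
    funext a
    simp [CharTwo.add_self_eq_zero]
  have e1 : (TT G C u * TT G C v) *ᵥ u = v := by
    rw [← Matrix.mulVec_mulVec, TT_mulVec v u, huv, one_smul, TT_mulVec, add_dotProduct, mul_add, huu, mul_zero,
      zero_add, hvu, one_smul, add_comm u v, add_assoc, huu', add_zero]
  have e2 : (TT G C v * TT G C u) *ᵥ u = u + v := by
    rw [← Matrix.mulVec_mulVec, TT_mulVec u u, huu, mul_zero, zero_smul, add_zero, TT_mulVec, huv, one_smul]
  rw [hc, e2] at e1
  apply hu0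
  have : u + v = 0 + v := by rw [e1, zero_add]
  exact add_right_cancel this

/-- The main theorem in standard coordinates. -/
theorem main {i₀ i₁ : Fin t} (hi : i₀ ≠ i₁) {G : Matrix (Fin k) (Fin k) F} (hGs : Gᵀ = G)
    (hGa : ∀ v : Fin k → F, v ⬝ᵥ (G *ᵥ v) = 0) (hG0 : G ≠ 0) {C : F} (hC : C ≠ 0)
    {Q : ((Fin t → Fin k) → F) → F} (hQ : QD G C Q) (hcard : 8 < Fintype.card (Fin t → Fin k))
    {Sub : Submodule F (Matrix (Fin k) (Fin k) F)} {s e : Matrix (Fin k) (Fin k) F}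
    (D : SubData G t Sub s e) :
    ∃ K : Subgroup (Matrix.GeneralLinearGroup (Fin t → Fin k) F),
      Cfsg.Geo.tensorWreathStandard k t F ⊓ Cfsg.Geo.omegaGL Q < K ∧ K < Cfsg.Geo.omegaGL Q := by
  classical
  haveI : Nonempty (Fin t → Fin k) := by
    apply Fintype.card_pos_iff.mp
    omega
  -- a hyperbolic pair of vectors
  obtain ⟨p, p', hp⟩ : ∃ p p' : Fin k → F, p ⬝ᵥ (G *ᵥ p') = 1 := by
    obtain ⟨x, y, hxy⟩ : ∃ x y, G x y ≠ 0 := by
      by_contra hcon
      push Not at hcon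
      exact hG0 (Matrix.ext hcon)
    refine ⟨Pi.single x 1, (G x y)⁻¹ • Pi.single y 1, ?_⟩
    rw [Matrix.mulVec_smul, dotProduct_smul, Matrix.mulVec_single_one, single_one_dotProduct]
    simp only [Matrix.col_apply, smul_eq_mul]
    exact inv_mul_cancel₀ hxy
  obtain ⟨u, v, hu, hv, huv, hvu⟩ := exists_pair hQ hC hGa hGs hi hp
  have h2u : TT G C u * TT G C u = 1 := TT_mul_self hQ hC u
  have h2v : TT G C v * TT G C v = 1 := TT_mul_self hQ hC v
  -- the elements of the Clifford group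
  obtain ⟨a, hadef⟩ : ∃ a : Matrix (Fin t → Fin k) (Fin t → Fin k) F, a = tau i₀ s + tau i₁ s := ⟨_, rfl⟩
  obtain ⟨b, hbdef⟩ : ∃ b : Matrix (Fin t → Fin k) (Fin t → Fin k) F, b = tau i₀ e := ⟨_, rfl⟩
  have haa : a * a = 0 := by
    rw [hadef]
    have h1 := tau_comm hi s s
    calc (tau i₀ s + tau i₁ s) * (tau i₀ s + tau i₁ s)
        = tau i₀ s * tau i₀ s + tau i₁ s * tau i₁ s + (tau i₀ s * tau i₁ s + tau i₁ s * tau i₀ s) := by noncomm_ring
      _ = 0 := by
        rw [tau_mul, tau_mul, D.ss, tau_one, tau_one, h1, add_self_matrix, add_self_matrix, add_zero]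
  have hbb : b * b = 0 := by
    rw [hbdef, tau_mul, D.ee, tau_zero]
  have h2a : (1 + a) * (1 + a) = 1 := one_add_sq (add_self_matrix a) haa
  have h2b : (1 + b) * (1 + b) = 1 := one_add_sq (add_self_matrix b) hbb
  have haL : a ∈ LL Sub := by
    rw [hadef]
    exact (LL Sub).add_mem (tau_mem_LL i₀ D.s_mem) (tau_mem_LL i₁ D.s_mem)
  have hbL : b ∈ LL Sub := by
    rw [hbdef]
    exact tau_mem_LL i₀ D.e_mem
  have hI₁ : unitOf (1 + a) h2a ∈ Cfsg.isometryGroup F Q := by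
    rw [Cfsg.Agent.Lib.Linalg.IsomRep.mem_isometryGroup]
    intro w
    change Q ((1 + a) *ᵥ w) = Q w
    rw [hadef]
    exact sum_iso hQ hGa hi D.s_adj D.ss D.alt w
  have hI₂ : unitOf (1 + b) h2b ∈ Cfsg.isometryGroup F Q := by
    rw [Cfsg.Agent.Lib.Linalg.IsomRep.mem_isometryGroup]
    intro w
    change Q ((1 + b) *ᵥ w) = Q w
    rw [hbdef]
    exact tau_iso hQ hGa hi D.e_adj D.ee w
  have hTu : unitOf (TT G C u) h2u ∈ Cfsg.isometryGroup F Q := by
    rw [Cfsg.Agent.Lib.Linalg.IsomRep.mem_isometryGroup]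
    intro w
    exact TT_iso hQ hu w
  have hTv : unitOf (TT G C v) h2v ∈ Cfsg.isometryGroup F Q := by
    rw [Cfsg.Agent.Lib.Linalg.IsomRep.mem_isometryGroup]
    intro w
    exact TT_iso hQ hv w
  refine ⟨Cfsg.Geo.omegaGL Q ⊓ NN Sub, ?_, ?_⟩
  · rw [SetLike.lt_iff_le_and_exists]
    constructor
    · rintro g ⟨hW, hO⟩
      exact ⟨hO, wreath_le hG0 hC hQ D hW (iso_of_mem_omega hO)⟩
    · refine ⟨⁅unitOf (1 + a) h2a, unitOf (1 + b) h2b⁆, ⟨comm_mem_omega hI₁ hI₂, ?_⟩, ?_⟩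
      · have h1 := one_add_mem_NN i₀ D.one_mem D.sq haL haa h2a
        have h2 := one_add_mem_NN i₀ D.one_mem D.sq hbL hbb h2b
        rw [commutatorElement_def]
        exact (NN Sub).mul_mem ((NN Sub).mul_mem ((NN Sub).mul_mem h1 h2) ((NN Sub).inv_mem h1)) ((NN Sub).inv_mem h2)
      · intro h
        exact comm_not_wreath hi D.ss D.ee D.se hadef hbdef haa hbb h2a h2b h.1
  · rw [SetLike.lt_iff_le_and_exists]
    refine ⟨inf_le_left, ⁅unitOf (TT G C u) h2u, unitOf (TT G C v) h2v⁆, comm_mem_omega hTu hTv, ?_⟩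
    intro h
    exact low_rank_not_NN hC hQ D hi hcard hu huv hvu h2u h2v h.2

end Cfsg.Agent.Lib.Classical.TenSpin.Main
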