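import Mathlib
import Cfsg.Prelude.Def_GeometricClasses
import Cfsg.Agent.Lib.Classical.TenSpin.Main

/-!
# Transport of the subspace data along a change of basis of `F^k`
-/

set_option autoImplicit false

namespace Cfsg.Agent.Lib.Classical.TenSpin.Transport

open Matrix Ten Cliff Iso Wreath Main

variable {F : Type*} [Field F] [CharP F 2] {k : ℕ}

/-- Conjugate of a subspace. -/
def conjSub (M Mi : Matrix (Fin k) (Fin k) F) (Sub : Submodule F (Matrix (Fin k) (Fin k) F)) :
    Submodule F (Matrix (Fin k) (Fin k) F) where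
  carrier := {A | Mi * A * M ∈ Sub}
  add_mem' := by
    intro a b ha hb
    have : Mi * (a + b) * M = Mi * a * M + Mi * b * M := by noncomm_ring
    change Mi * (a + b) * M ∈ Sub
    rw [this]
    exact Sub.add_mem ha hb
  zero_mem' := by
    change Mi * 0 * M ∈ Sub
    simp
  smul_mem' := by
    intro c a ha
    change Mi * (c • a) * M ∈ Sub
    have : Mi * (c • a) * M = c • (Mi * a * M) := by
      rw [Matrix.mul_smul, Matrix.smul_mul]
    rw [this]
    exact Sub.smul_mem c ha

theorem mem_conjSub {M Mi A : Matrix (Fin k) (Fin k) F} {Sub : Submodule F (Matrix (Fin k) (Fin k) F)} :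
    A ∈ conjSub M Mi Sub ↔ Mi * A * M ∈ Sub := Iff.rfl

theorem SubData.conjM {t : ℕ} {G J : Matrix (Fin k) (Fin k) F} (M : Matrix.GeneralLinearGroup (Fin k) F)
    (hM : (M.val)ᵀ * G * M.val = J) {Sub : Submodule F (Matrix (Fin k) (Fin k) F)}
    {s e : Matrix (Fin k) (Fin k) F} (D : SubData J t Sub s e) :
    SubData G t (conjSub M.val (M⁻¹ : Matrix.GeneralLinearGroup (Fin k) F).val Sub)
      (M.val * s * (M⁻¹ : Matrix.GeneralLinearGroup (Fin k) F).val)
      (M.val * e * (M⁻¹ : Matrix.GeneralLinearGroup (Fin k) F).val) := by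
  obtain ⟨Mi, hMi⟩ : ∃ Mi, Mi = (M⁻¹ : Matrix.GeneralLinearGroup (Fin k) F).val := ⟨_, rfl⟩
  rw [← hMi]
  have h1 : M.val * Mi = 1 := by rw [hMi]; exact M.val_inv
  have h2 : Mi * M.val = 1 := by rw [hMi]; exact M.inv_val
  have hc : ∀ A B : Matrix (Fin k) (Fin k) F, Mi * (A * B) * M.val = (Mi * A * M.val) * (Mi * B * M.val) := by
    intro A B
    calc Mi * (A * B) * M.val = Mi * A * 1 * B * M.val := by simp only [Matrix.mul_one, Matrix.mul_assoc]
      _ = _ := by rw [← h1]; simp only [Matrix.mul_assoc]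
  have hc' : ∀ A B : Matrix (Fin k) (Fin k) F, M.val * (A * B) * Mi = (M.val * A * Mi) * (M.val * B * Mi) := by
    intro A B
    calc M.val * (A * B) * Mi = M.val * A * 1 * B * Mi := by simp only [Matrix.mul_one, Matrix.mul_assoc]
      _ = _ := by rw [← h2]; simp only [Matrix.mul_assoc]
  have hb : ∀ A : Matrix (Fin k) (Fin k) F, Mi * (M.val * A * Mi) * M.val = A := by
    intro A
    calc Mi * (M.val * A * Mi) * M.val = (Mi * M.val) * A * (Mi * M.val) := by simp only [Matrix.mul_assoc]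
      _ = A := by rw [h2, Matrix.one_mul, Matrix.mul_one]
  have hb' : ∀ A : Matrix (Fin k) (Fin k) F, M.val * (Mi * A * M.val) * Mi = A := by
    intro A
    calc M.val * (Mi * A * M.val) * Mi = (M.val * Mi) * A * (M.val * Mi) := by simp only [Matrix.mul_assoc]
      _ = A := by rw [h1, Matrix.one_mul, Matrix.mul_one]
  have hone : Mi * 1 * M.val = 1 := by rw [Matrix.mul_one, h2]
  have hs : ∀ (c : F) (A : Matrix (Fin k) (Fin k) F), Mi * (c • A) * M.val = c • (Mi * A * M.val) := by
    intro c A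
    rw [Matrix.mul_smul, Matrix.smul_mul]
  have hs' : ∀ (c : F) (A : Matrix (Fin k) (Fin k) F), M.val * (c • A) * Mi = c • (M.val * A * Mi) := by
    intro c A
    rw [Matrix.mul_smul, Matrix.smul_mul]
  have hone' : M.val * 1 * Mi = 1 := by rw [Matrix.mul_one, h1]
  have hadd' : ∀ A B : Matrix (Fin k) (Fin k) F, M.val * (A + B) * Mi = M.val * A * Mi + M.val * B * Mi := by
    intro A B
    noncomm_ring
  have hT : Mi.transpose * (M.val).transpose = 1 := by
    rw [← Matrix.transpose_mul, h1, Matrix.transpose_one]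
  have hG : ∀ (B : Matrix (Fin k) (Fin k) F), (M.val * B * Mi)ᵀ * G = Miᵀ * (Bᵀ * J) * Mi := by
    intro B
    rw [← hM, Matrix.transpose_mul, Matrix.transpose_mul]
    calc Miᵀ * (Bᵀ * (M.val)ᵀ) * G = Miᵀ * (Bᵀ * (M.val)ᵀ) * G * (M.val * Mi) := by rw [h1, Matrix.mul_one]
      _ = _ := by simp only [Matrix.mul_assoc]
  have hG' : ∀ (B : Matrix (Fin k) (Fin k) F), G * (M.val * B * Mi) = Miᵀ * (J * B) * Mi := by
    intro B
    rw [← hM]
    calc G * (M.val * B * Mi) = (Miᵀ * (M.val)ᵀ) * G * (M.val * B * Mi) := by rw [hT, Matrix.one_mul]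
      _ = _ := by simp only [Matrix.mul_assoc]
  refine ⟨?_, ?_, ?_, ?_, ?_, ?_, ?_, ?_, ?_, ?_, ?_, ?_⟩
  · rw [mem_conjSub, hone]
    exact D.one_mem
  · intro A hA
    obtain ⟨c, hc1⟩ := D.sq _ hA
    refine ⟨c, ?_⟩
    have := congrArg (fun X => M.val * X * Mi) hc1
    rw [← hc, hb', hs', hone'] at this
    exact this
  · intro A hA
    rcases D.inv _ hA with ⟨c, hc1⟩ | ⟨B, hB⟩
    · left
      refine ⟨c, ?_⟩
      have := congrArg (fun X => M.val * X * Mi) hc1
      rw [hb', hs', hone'] at this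
      exact this
    · right
      refine ⟨M.val * B * Mi, ?_⟩
      have := congrArg (fun X => M.val * X * Mi) hB
      rw [hadd', hc' (Mi * A * M.val) B, hc' B (Mi * A * M.val), hb', hone'] at this
      exact this
  · intro g c hc0 hg A hA
    -- the conjugate of `g`
    let g' : Matrix.GeneralLinearGroup (Fin k) F := M⁻¹ * g * M
    have hg'v : g'.val = Mi * g.val * M.val := by
      simp only [g', Units.val_mul, hMi]
    have hg'i : ((g'⁻¹ : Matrix.GeneralLinearGroup (Fin k) F)).val =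
        Mi * (g⁻¹ : Matrix.GeneralLinearGroup (Fin k) F).val * M.val := by
      simp only [g', _root_.mul_inv_rev, inv_inv, Units.val_mul, hMi, Matrix.mul_assoc]
    have hsim : (g'.val)ᵀ * J * g'.val = c • J := by
      rw [hg'v, ← hM]
      have e1 : (Mi * g.val * M.val)ᵀ * ((M.val)ᵀ * G * M.val) * (Mi * g.val * M.val) =
          (M.val)ᵀ * (g.val)ᵀ * (Miᵀ * (M.val)ᵀ) * G * (M.val * Mi) * g.val * M.val := by
        rw [Matrix.transpose_mul, Matrix.transpose_mul]
        simp only [Matrix.mul_assoc]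
      rw [e1, hT, h1, Matrix.mul_one, Matrix.mul_one]
      calc (M.val)ᵀ * (g.val)ᵀ * G * g.val * M.val = (M.val)ᵀ * ((g.val)ᵀ * G * g.val) * M.val := by
            simp only [Matrix.mul_assoc]
        _ = _ := by rw [hg, Matrix.mul_smul, Matrix.smul_mul]
    have := D.conj g' c hc0 hsim (Mi * A * M.val) hA
    rw [hg'v, hg'i, ← hc, ← hc] at this
    rw [mem_conjSub]
    convert this using 2
  · rw [mem_conjSub, hb]
    exact D.s_mem
  · rw [mem_conjSub, hb]
    exact D.e_mem
  · rw [← hc', D.ss, hone']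
  · rw [← hc', D.ee]
    simp
  · rw [← hc', ← hc', ← hadd', D.se, hone']
  · rw [hG, hG', D.s_adj]
  · rw [hG, hG', D.e_adj]
  · rcases D.alt with h3 | halt
    · exact Or.inl h3
    · right
      intro v
      rw [hG']
      have e2 : (Miᵀ * (J * s) * Mi) *ᵥ v = Miᵀ *ᵥ ((J * s) *ᵥ (Mi *ᵥ v)) := by
        simp only [Matrix.mulVec_mulVec, Matrix.mul_assoc]
      rw [e2, Matrix.dotProduct_mulVec, Matrix.vecMul_transpose]
      exact halt _

end Cfsg.Agent.Lib.Classical.TenSpin.Transport
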