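import Mathlib
import Cfsg.Prelude.Def_GeometricClasses
import Cfsg.Agent.Lib.Classical.TenSpin.Main
import Cfsg.Agent.Lib.Classical.TenSpin.Transport

/-!
# The subspaces `Sub` for `k = 2` and `k = 4`
-/

set_option autoImplicit false

namespace Cfsg.Agent.Lib.Classical.TenSpin.Models

open Matrix Ten Cliff Iso Wreath Main Transport

variable {F : Type*} [Field F] [CharP F 2]

/-! ### `k = 2` -/

/-- Trace zero matrices. -/
def sub2 : Submodule F (Matrix (Fin 2) (Fin 2) F) := LinearMap.ker (Matrix.traceLinearMap (Fin 2) F F)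

omit [CharP F 2] in
theorem mem_sub2 {A : Matrix (Fin 2) (Fin 2) F} : A ∈ sub2 ↔ A.trace = 0 := by
  simp [sub2, LinearMap.mem_ker]

/-- The data for `k = 2`. -/
theorem subData_two {t : ℕ} (ht : 3 ≤ t) {γ : F} :
    SubData (!![0, γ; γ, 0]) t sub2 (!![0, 1; 1, 0]) (!![0, 1; 0, 0]) := by
  have htr : ∀ A : Matrix (Fin 2) (Fin 2) F, A.trace = 0 → A 1 1 = A 0 0 := by
    intro A hA
    rw [Matrix.trace_fin_two] at hA
    exact ((CharTwo.add_eq_zero).mp hA).symm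
  have h2 : (2 : F) = 0 := CharTwo.two_eq_zero
  refine ⟨?_, ?_, ?_, ?_, ?_, ?_, ?_, ?_, ?_, ?_, ?_, Or.inl ht⟩
  · rw [mem_sub2]
    simp [Matrix.trace_fin_two, h2]
  · intro A hA
    have h1 := htr A (mem_sub2.mp hA)
    refine ⟨A 0 0 ^ 2 + A 0 1 * A 1 0, ?_⟩
    ext i j
    fin_cases i <;> fin_cases j <;>
      simp [Matrix.mul_apply, Fin.sum_univ_two, h1, Matrix.one_apply] <;> ring_nf <;> simp [h2]
  · intro A hA
    have h1 := htr A (mem_sub2.mp hA)
    by_cases hb : A 0 1 = 0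
    · by_cases hc : A 1 0 = 0
      · left
        refine ⟨A 0 0, ?_⟩
        ext i j
        fin_cases i <;> fin_cases j <;> simp [h1, hb, hc]
      · right
        refine ⟨!![0, (A 1 0)⁻¹; 0, 0], ?_⟩
        ext i j
        fin_cases i <;> fin_cases j <;>
          simp only [Matrix.add_apply, Matrix.mul_apply, Fin.sum_univ_two] <;>
          simp [h1, hc, CharTwo.add_self_eq_zero] <;> ring_nf <;> simp [h2]
    · right
      refine ⟨!![0, 0; (A 0 1)⁻¹, 0], ?_⟩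
      ext i j
      fin_cases i <;> fin_cases j <;>
        simp only [Matrix.add_apply, Matrix.mul_apply, Fin.sum_univ_two] <;>
        simp [h1, hb, CharTwo.add_self_eq_zero] <;> ring_nf <;> simp [h2]
  · intro g c _ _ A hA
    rw [mem_sub2] at hA ⊢
    rw [Matrix.trace_mul_comm, ← Matrix.mul_assoc]
    have : (g⁻¹ : Matrix.GeneralLinearGroup (Fin 2) F).val * g.val = 1 := g.inv_val
    rw [this, Matrix.one_mul, hA]
  · rw [mem_sub2]
    simp [Matrix.trace_fin_two]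
  · rw [mem_sub2]
    simp [Matrix.trace_fin_two]
  · ext i j
    fin_cases i <;> fin_cases j <;> simp [Matrix.mul_apply, Fin.sum_univ_two]
  · ext i j
    fin_cases i <;> fin_cases j <;> simp [Matrix.mul_apply, Fin.sum_univ_two]
  · ext i j
    fin_cases i <;> fin_cases j <;> simp [Matrix.mul_apply, Fin.sum_univ_two]
  · ext i j
    fin_cases i <;> fin_cases j <;> simp [Matrix.mul_apply, Fin.sum_univ_two]
  · ext i j
    fin_cases i <;> fin_cases j <;> simp [Matrix.mul_apply, Fin.sum_univ_two]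

/-! ### `k = 4` -/

/-- The antidiagonal Gram matrix. -/
def J4 : Matrix (Fin 4) (Fin 4) F := !![0, 0, 0, 1; 0, 0, 1, 0; 0, 1, 0, 0; 1, 0, 0, 0]

/-- The pattern of the elements of `Sub`. -/
def IsPat (A : Matrix (Fin 4) (Fin 4) F) : Prop :=
  A 1 1 = A 0 0 ∧ A 2 2 = A 0 0 ∧ A 3 3 = A 0 0 ∧ A 2 3 = A 0 1 ∧ A 1 3 = A 0 2 ∧ A 3 2 = A 1 0 ∧ A 3 1 = A 2 0 ∧
    A 0 3 = 0 ∧ A 1 2 = 0 ∧ A 2 1 = 0 ∧ A 3 0 = 0

/-- The subspace for `k = 4`. -/
def sub4 : Submodule F (Matrix (Fin 4) (Fin 4) F) where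
  carrier := {A | IsPat A}
  add_mem' := by
    rintro a b ⟨h1, h2, h3, h4, h5, h6, h7, h8, h9, h10, h11⟩ ⟨k1, k2, k3, k4, k5, k6, k7, k8, k9, k10, k11⟩
    refine ⟨?_, ?_, ?_, ?_, ?_, ?_, ?_, ?_, ?_, ?_, ?_⟩ <;> simp [*]
  zero_mem' := by
    refine ⟨?_, ?_, ?_, ?_, ?_, ?_, ?_, ?_, ?_, ?_, ?_⟩ <;> simp
  smul_mem' := by
    rintro c a ⟨h1, h2, h3, h4, h5, h6, h7, h8, h9, h10, h11⟩
    refine ⟨?_, ?_, ?_, ?_, ?_, ?_, ?_, ?_, ?_, ?_, ?_⟩ <;> simp [*]

omit [CharP F 2] in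
theorem mem_sub4 {A : Matrix (Fin 4) (Fin 4) F} : A ∈ sub4 ↔ IsPat A := Iff.rfl

/-- Explicit form. -/
def mat4 (β p' p r' r : F) : Matrix (Fin 4) (Fin 4) F :=
  !![β, p', p, 0; r', β, 0, p; r, 0, β, p'; 0, r, r', β]

omit [CharP F 2] in
theorem eq_mat4 {A : Matrix (Fin 4) (Fin 4) F} (h : IsPat A) :
    A = mat4 (A 0 0) (A 0 1) (A 0 2) (A 1 0) (A 2 0) := by
  obtain ⟨h1, h2, h3, h4, h5, h6, h7, h8, h9, h10, h11⟩ := h
  ext i j
  fin_cases i <;> fin_cases j <;> simp [mat4, *]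

theorem mat4_sq (β p' p r' r : F) :
    mat4 β p' p r' r * mat4 β p' p r' r = (β ^ 2 + p' * r' + p * r) • 1 := by
  have h2 : (2 : F) = 0 := CharTwo.two_eq_zero
  ext i j
  fin_cases i <;> fin_cases j <;>
    simp [mat4, Matrix.mul_apply, Fin.sum_univ_four, Matrix.one_apply] <;> ring_nf <;> simp [h2]

theorem mat4_alt (β p' p r' r : F) (v : Fin 4 → F) :
    v ⬝ᵥ ((J4 * mat4 β p' p r' r) *ᵥ v) = 0 := by
  have h2 : (2 : F) = 0 := CharTwo.two_eq_zero
  simp [J4, mat4, Matrix.mul_apply, Fin.sum_univ_four, Matrix.mulVec, dotProduct]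
  ring_nf
  simp [h2]

omit [CharP F 2] in
theorem J4_mul_apply (A : Matrix (Fin 4) (Fin 4) F) (j : Fin 4) :
    (J4 * A : Matrix (Fin 4) (Fin 4) F) 0 j = A 3 j ∧ (J4 * A : Matrix (Fin 4) (Fin 4) F) 1 j = A 2 j ∧
      (J4 * A : Matrix (Fin 4) (Fin 4) F) 2 j = A 1 j ∧ (J4 * A : Matrix (Fin 4) (Fin 4) F) 3 j = A 0 j := by
  refine ⟨?_, ?_, ?_, ?_⟩ <;> simp [J4, Matrix.mul_apply, Fin.sum_univ_four]

/-- The characterisation of the pattern. -/
theorem isPat_of (A : Matrix (Fin 4) (Fin 4) F) (halt : ∀ v : Fin 4 → F, v ⬝ᵥ ((J4 * A) *ᵥ v) = 0)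
    {c : F} (hc : A * A = c • 1) : IsPat A := by
  obtain ⟨B, hB⟩ : ∃ B, B = J4 * A := ⟨_, rfl⟩
  rw [← hB] at halt
  have hdiag : ∀ i, B i i = 0 := by
    intro i
    have := halt (Pi.single i 1)
    simpa [Matrix.mulVec_single_one, single_one_dotProduct] using this
  have hsym : ∀ i j, B i j = B j i := by
    intro i j
    have := halt (Pi.single i 1 + Pi.single j 1)
    simp only [Matrix.mulVec_add, add_dotProduct, dotProduct_add, Matrix.mulVec_single_one,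
      single_one_dotProduct, Matrix.col_apply, hdiag, zero_add, add_zero] at this
    exact ((CharTwo.add_eq_zero).mp this).symm
  have e : ∀ j, (B 0 j = A 3 j) ∧ (B 1 j = A 2 j) ∧ (B 2 j = A 1 j) ∧ (B 3 j = A 0 j) := by
    intro j
    rw [hB]
    exact J4_mul_apply A j
  have a30 : A 3 0 = 0 := by rw [← (e 0).1, hdiag]
  have a21 : A 2 1 = 0 := by rw [← (e 1).2.1, hdiag]
  have a12 : A 1 2 = 0 := by rw [← (e 2).2.2.1, hdiag]
  have a03 : A 0 3 = 0 := by rw [← (e 3).2.2.2, hdiag]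
  have a31 : A 3 1 = A 2 0 := by rw [← (e 1).1, ← (e 0).2.1, hsym]
  have a32 : A 3 2 = A 1 0 := by rw [← (e 2).1, ← (e 0).2.2.1, hsym]
  have a33 : A 3 3 = A 0 0 := by rw [← (e 3).1, ← (e 0).2.2.2, hsym]
  have a22 : A 2 2 = A 1 1 := by rw [← (e 2).2.1, ← (e 1).2.2.1, hsym]
  have a23 : A 2 3 = A 0 1 := by rw [← (e 3).2.1, ← (e 1).2.2.2, hsym]
  have a13 : A 1 3 = A 0 2 := by rw [← (e 3).2.2.1, ← (e 2).2.2.2, hsym]
  have d0 : (A * A) 0 0 = c := by
    rw [hc]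
    simp
  have d1 : (A * A) 1 1 = c := by
    rw [hc]
    simp
  have hsq : A 0 0 ^ 2 = A 1 1 ^ 2 := by
    have h3 : (A * A) 0 0 = (A * A) 1 1 := by rw [d0, d1]
    simp only [Matrix.mul_apply, Fin.sum_univ_four, a03, a12, a21, a30, a13, a31] at h3
    linear_combination h3
  have h00 : A 1 1 = A 0 0 := by
    have h4 : (A 0 0 + A 1 1) ^ 2 = 0 := by
      have h2 : (2 : F) = 0 := CharTwo.two_eq_zero
      linear_combination hsq + (A 1 1 ^ 2 + A 0 0 * A 1 1) * h2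
    have h5 : A 0 0 + A 1 1 = 0 := pow_eq_zero_iff (two_ne_zero) |>.mp h4
    exact ((CharTwo.add_eq_zero).mp h5).symm
  exact ⟨h00, a22.trans h00, a33, a23, a13, a32, a31, a03, a12, a21, a30⟩

/-- Elements of the pattern are scalar or have an inverse for the bracket. -/
theorem mat4_inv (β p' p r' r : F) :
    (∃ c : F, mat4 β p' p r' r = c • (1 : Matrix (Fin 4) (Fin 4) F)) ∨
      ∃ B : Matrix (Fin 4) (Fin 4) F, mat4 β p' p r' r * B + B * mat4 β p' p r' r = 1 := by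
  have h2 : (2 : F) = 0 := CharTwo.two_eq_zero
  by_cases hp : p = 0
  · by_cases hr : r = 0
    · by_cases hp' : p' = 0
      · by_cases hr' : r' = 0
        · left
          refine ⟨β, ?_⟩
          subst hp hr hp' hr'
          ext i j
          fin_cases i <;> fin_cases j <;> simp [mat4]
        · right
          refine ⟨!![0, r'⁻¹, 0, 0; 0, 0, 0, 0; 0, 0, 0, r'⁻¹; 0, 0, 0, 0], ?_⟩
          ext i j
          fin_cases i <;> fin_cases j <;>
            simp only [Matrix.add_apply, Matrix.mul_apply, Fin.sum_univ_four] <;>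
            simp [mat4, hr', Matrix.one_apply] <;> ring_nf <;> simp [h2]
      · right
        refine ⟨!![0, 0, 0, 0; p'⁻¹, 0, 0, 0; 0, 0, 0, 0; 0, 0, p'⁻¹, 0], ?_⟩
        ext i j
        fin_cases i <;> fin_cases j <;>
          simp only [Matrix.add_apply, Matrix.mul_apply, Fin.sum_univ_four] <;>
          simp [mat4, hp', Matrix.one_apply] <;> ring_nf <;> simp [h2]
    · right
      refine ⟨!![0, 0, r⁻¹, 0; 0, 0, 0, r⁻¹; 0, 0, 0, 0; 0, 0, 0, 0], ?_⟩
      ext i j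
      fin_cases i <;> fin_cases j <;>
        simp only [Matrix.add_apply, Matrix.mul_apply, Fin.sum_univ_four] <;>
        simp [mat4, hr, Matrix.one_apply] <;> ring_nf <;> simp [h2]
  · right
    refine ⟨!![0, 0, 0, 0; 0, 0, 0, 0; p⁻¹, 0, 0, 0; 0, p⁻¹, 0, 0], ?_⟩
    ext i j
    fin_cases i <;> fin_cases j <;>
      simp only [Matrix.add_apply, Matrix.mul_apply, Fin.sum_univ_four] <;>
      simp [mat4, hp, Matrix.one_apply] <;> ring_nf <;> simp [h2]

/-- The data for `k = 4`, Gram matrix `J4`. -/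
theorem subData_four {t : ℕ} :
    SubData (J4 : Matrix (Fin 4) (Fin 4) F) t sub4 (mat4 0 0 1 0 1) (mat4 0 0 1 0 0) := by
  have h2 : (2 : F) = 0 := CharTwo.two_eq_zero
  have hone : IsPat (1 : Matrix (Fin 4) (Fin 4) F) := by
    refine ⟨?_, ?_, ?_, ?_, ?_, ?_, ?_, ?_, ?_, ?_, ?_⟩ <;> simp
  have hmat : ∀ β p' p r' r : F, IsPat (mat4 β p' p r' r) := by
    intro β p' p r' r
    refine ⟨?_, ?_, ?_, ?_, ?_, ?_, ?_, ?_, ?_, ?_, ?_⟩ <;> simp [mat4]
  refine ⟨hone, ?_, ?_, ?_, hmat _ _ _ _ _, hmat _ _ _ _ _, ?_, ?_, ?_, ?_, ?_, Or.inr (mat4_alt _ _ _ _ _)⟩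
  · intro A hA
    rw [mem_sub4] at hA
    rw [eq_mat4 hA]
    exact ⟨_, mat4_sq _ _ _ _ _⟩
  · intro A hA
    rw [mem_sub4] at hA
    rw [eq_mat4 hA]
    exact mat4_inv _ _ _ _ _
  · intro g c hc hg A hA
    rw [mem_sub4] at hA ⊢
    obtain ⟨d, hd⟩ : ∃ d : F, A * A = d • 1 := by
      rw [eq_mat4 hA]
      exact ⟨_, mat4_sq _ _ _ _ _⟩
    obtain ⟨h, hh⟩ : ∃ h, h = (g⁻¹ : Matrix.GeneralLinearGroup (Fin 4) F).val := ⟨_, rfl⟩
    rw [← hh]
    have h1 : g.val * h = 1 := by rw [hh]; exact g.val_inv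
    have h3 : h * g.val = 1 := by rw [hh]; exact g.inv_val
    have hJg : J4 * g.val = c • (hᵀ * J4) := by
      have h4 : hᵀ * ((g.val)ᵀ * J4 * g.val) = hᵀ * (c • J4) := by rw [hg]
      have h5 : hᵀ * (g.val)ᵀ = 1 := by rw [← Matrix.transpose_mul, h1, Matrix.transpose_one]
      rw [Matrix.mul_smul] at h4
      rw [← h4]
      calc J4 * g.val = (hᵀ * (g.val)ᵀ) * J4 * g.val := by rw [h5, Matrix.one_mul]
        _ = _ := by simp only [Matrix.mul_assoc]
    apply isPat_of (c := d)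
    · intro v
      have e1 : (J4 * (g.val * A * h)) *ᵥ v = c • (hᵀ *ᵥ ((J4 * A) *ᵥ (h *ᵥ v))) := by
        have : J4 * (g.val * A * h) = c • (hᵀ * (J4 * A) * h) := by
          calc J4 * (g.val * A * h) = (J4 * g.val) * A * h := by simp only [Matrix.mul_assoc]
            _ = _ := by rw [hJg]; simp only [Matrix.smul_mul, Matrix.mul_assoc]
        rw [this, Matrix.smul_mulVec]
        simp only [Matrix.mulVec_mulVec, Matrix.mul_assoc]
      rw [e1, dotProduct_smul, Matrix.dotProduct_mulVec, Matrix.vecMul_transpose]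
      have : (J4 * A) *ᵥ (h *ᵥ v) = (J4 * mat4 (A 0 0) (A 0 1) (A 0 2) (A 1 0) (A 2 0)) *ᵥ (h *ᵥ v) := by
        rw [← eq_mat4 hA]
      rw [this, mat4_alt, smul_zero]
    · calc g.val * A * h * (g.val * A * h) = g.val * A * (h * g.val) * A * h := by simp only [Matrix.mul_assoc]
        _ = g.val * (A * A) * h := by rw [h3, Matrix.mul_one]; simp only [Matrix.mul_assoc]
        _ = d • 1 := by rw [hd, Matrix.mul_smul, Matrix.smul_mul, Matrix.mul_one, h1]
  · have := mat4_sq (0 : F) 0 1 0 1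
    simpa using this
  · ext i j
    fin_cases i <;> fin_cases j <;>
      simp [mat4, Matrix.mul_apply, Fin.sum_univ_four]
  · ext i j
    fin_cases i <;> fin_cases j <;>
      simp [mat4, Matrix.add_apply, Matrix.mul_apply, Fin.sum_univ_four]
  · ext i j
    fin_cases i <;> fin_cases j <;>
      simp [mat4, J4, Matrix.mul_apply, Fin.sum_univ_four]
  · ext i j
    fin_cases i <;> fin_cases j <;>
      simp [mat4, J4, Matrix.mul_apply, Fin.sum_univ_four]

end Cfsg.Agent.Lib.Classical.TenSpin.Models
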