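import Mathlib
import Cfsg.Prelude.Def_GeometricClasses
import Cfsg.Agent.Lib.Classical.Symp.SympBasis
import Cfsg.Agent.Lib.Classical.Symp.Basic
import Cfsg.Agent.Lib.Classical.Geo.Basic
import Cfsg.Agent.Lib.Classical.TenSpin.Main
import Cfsg.Agent.Lib.Classical.TenSpin.Transport
import Cfsg.Agent.Lib.Classical.TenSpin.Models

/-!
# The tensor wreath stabiliser in `Ω⁺`, characteristic two: an intermediate subgroup
-/

set_option autoImplicit false

namespace Cfsg.Agent.Lib.Classical.TenSpin.Final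

open Matrix Ten Cliff Iso Wreath Main Transport Models Cfsg.Geo

variable {F : Type*} [Field F]

/-- A bilinear form is given by its Gram matrix. -/
theorem gram_form {k : ℕ} {f : (Fin k → F) → (Fin k → F) → F} (hf : IsBilinearForm f) (v w : Fin k → F) :
    f v w = v ⬝ᵥ (gramMatrix f *ᵥ w) := by
  let B : LinearMap.BilinForm F (Fin k → F) := LinearMap.mk₂ F f hf.add_left
    (fun c m n => by simpa using hf.smul_left c m n) hf.add_right
    (fun c m n => by simpa using hf.smul_right c m n)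
  have hB : ∀ x y, B x y = f x y := fun _ _ => rfl
  have h1 : LinearMap.BilinForm.toMatrix' B = gramMatrix f := by
    ext i j
    rw [LinearMap.BilinForm.toMatrix'_apply]
    rfl
  rw [← hB, ← Matrix.toBilin'_toMatrix' B, Matrix.toBilin'_apply', h1]

/-- The forms on the tensor power. -/
theorem qd_of [CharP F 2] {n k t : ℕ} {Q : (Fin n → F) → F} (hQ : IsNondegenerateQuadraticForm Q)
    {f₁ : (Fin k → F) → (Fin k → F) → F} {e : Fin n ≃ (Fin t → Fin k)} {P : Matrix.GeneralLinearGroup (Fin n) F}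
    {c : F}
    (hc : ∀ x y : (Fin t → Fin k) → F,
      QuadraticMap.polar Q ((P : Matrix (Fin n) (Fin n) F) *ᵥ (x ∘ e)) ((P : Matrix (Fin n) (Fin n) F) *ᵥ (y ∘ e)) =
        c * ∑ a, ∑ b, x a * (∏ i, gramMatrix f₁ (a i) (b i)) * id (y b))
    (hpure : ∀ xs : Fin t → (Fin k → F),
      Q ((P : Matrix (Fin n) (Fin n) F) *ᵥ ((fun a : Fin t → Fin k => ∏ i, xs i (a i)) ∘ e)) = 0) :
    QD (gramMatrix f₁) c (fun v : (Fin t → Fin k) → F => Q ((P : Matrix (Fin n) (Fin n) F) *ᵥ (v ∘ e))) := by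
  refine ⟨?_, ?_, ?_⟩
  · intro d v
    have : ((d • v) ∘ e) = d • (v ∘ e) := rfl
    simp only [this, Matrix.mulVec_smul, hQ.smul]
  · intro u v
    have h1 : ((u + v) ∘ e) = u ∘ e + v ∘ e := rfl
    have h2 := hc u v
    simp only [h1, Matrix.mulVec_add]
    have h3 : (u ⬝ᵥ (GG (gramMatrix f₁) *ᵥ v)) = ∑ a, ∑ b, u a * (∏ i, gramMatrix f₁ (a i) (b i)) * id (v b) := by
      simp only [dotProduct, Matrix.mulVec, GG, ten_apply, Finset.mul_sum, id, mul_assoc]
    rw [h3, ← h2, QuadraticMap.polar]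
    ring
  · intro vs
    exact hpure vs

/-- The transport isomorphism. -/
def phi {n k t : ℕ} (e : Fin n ≃ (Fin t → Fin k)) (P : Matrix.GeneralLinearGroup (Fin n) F) :
    Matrix.GeneralLinearGroup (Fin t → Fin k) F ≃* Matrix.GeneralLinearGroup (Fin n) F :=
  (glReindex e.symm).trans (MulAut.conj P)

theorem reindex_mulVec {n k t : ℕ} (e : Fin n ≃ (Fin t → Fin k))
    (g : Matrix.GeneralLinearGroup (Fin t → Fin k) F) (v : (Fin t → Fin k) → F) :
    ((glReindex e.symm g : Matrix.GeneralLinearGroup (Fin n) F) : Matrix (Fin n) (Fin n) F) *ᵥ (v ∘ e) =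
      ((g : Matrix (Fin t → Fin k) (Fin t → Fin k) F) *ᵥ v) ∘ e := by
  funext i
  simp only [Matrix.mulVec, dotProduct, Function.comp_apply]
  have : ∀ j, ((glReindex e.symm g : Matrix.GeneralLinearGroup (Fin n) F) : Matrix (Fin n) (Fin n) F) i j =
      (g : Matrix (Fin t → Fin k) (Fin t → Fin k) F) (e i) (e j) := fun j => rfl
  simp only [this]
  exact Equiv.sum_comp e (fun b => (g : Matrix (Fin t → Fin k) (Fin t → Fin k) F) (e i) b * v b)

theorem phi_mulVec {n k t : ℕ} (e : Fin n ≃ (Fin t → Fin k)) (P : Matrix.GeneralLinearGroup (Fin n) F)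
    (g : Matrix.GeneralLinearGroup (Fin t → Fin k) F) (v : (Fin t → Fin k) → F) :
    ((phi e P g : Matrix.GeneralLinearGroup (Fin n) F) : Matrix (Fin n) (Fin n) F) *ᵥ
        ((P : Matrix (Fin n) (Fin n) F) *ᵥ (v ∘ e)) =
      (P : Matrix (Fin n) (Fin n) F) *ᵥ (((g : Matrix (Fin t → Fin k) (Fin t → Fin k) F) *ᵥ v) ∘ e) := by
  have h1 : ((phi e P g : Matrix.GeneralLinearGroup (Fin n) F) : Matrix (Fin n) (Fin n) F) =
      (P : Matrix (Fin n) (Fin n) F) *
        ((glReindex e.symm g : Matrix.GeneralLinearGroup (Fin n) F) : Matrix (Fin n) (Fin n) F) *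
          ((P⁻¹ : Matrix.GeneralLinearGroup (Fin n) F) : Matrix (Fin n) (Fin n) F) := rfl
  rw [h1, Matrix.mulVec_mulVec, Matrix.mul_assoc, Matrix.mul_assoc]
  have h2 : ((P⁻¹ : Matrix.GeneralLinearGroup (Fin n) F) : Matrix (Fin n) (Fin n) F) *
      (P : Matrix (Fin n) (Fin n) F) = 1 := P.inv_val
  rw [h2, Matrix.mul_one, ← Matrix.mulVec_mulVec, reindex_mulVec]

/-- Every vector is of the form `P (v ∘ e)`. -/
theorem exists_coord {n k t : ℕ} (e : Fin n ≃ (Fin t → Fin k)) (P : Matrix.GeneralLinearGroup (Fin n) F)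
    (w : Fin n → F) : ∃ v : (Fin t → Fin k) → F, (P : Matrix (Fin n) (Fin n) F) *ᵥ (v ∘ e) = w := by
  refine ⟨(((P⁻¹ : Matrix.GeneralLinearGroup (Fin n) F) : Matrix (Fin n) (Fin n) F) *ᵥ w) ∘ e.symm, ?_⟩
  have h1 : ((((P⁻¹ : Matrix.GeneralLinearGroup (Fin n) F) : Matrix (Fin n) (Fin n) F) *ᵥ w) ∘ e.symm) ∘ e =
      ((P⁻¹ : Matrix.GeneralLinearGroup (Fin n) F) : Matrix (Fin n) (Fin n) F) *ᵥ w := by
    funext i
    simp
  rw [h1, Matrix.mulVec_mulVec]
  have h2 : (P : Matrix (Fin n) (Fin n) F) * ((P⁻¹ : Matrix.GeneralLinearGroup (Fin n) F) : Matrix (Fin n) (Fin n) F) = 1 :=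
    P.val_inv
  rw [h2, Matrix.one_mulVec]

theorem map_isometry {n k t : ℕ} (e : Fin n ≃ (Fin t → Fin k)) (P : Matrix.GeneralLinearGroup (Fin n) F)
    (Q : (Fin n → F) → F) :
    (Cfsg.isometryGroup F (fun v : (Fin t → Fin k) → F => Q ((P : Matrix (Fin n) (Fin n) F) *ᵥ (v ∘ e)))).map
      (phi e P).toMonoidHom = Cfsg.isometryGroup F Q := by
  ext g
  constructor
  · rintro ⟨g₀, hg₀, rfl⟩
    rw [Cfsg.Agent.Lib.Linalg.IsomRep.mem_isometryGroup]
    intro w
    obtain ⟨v, rfl⟩ := exists_coord e P w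
    have := Cfsg.Agent.Lib.Linalg.IsomRep.mem_isometryGroup.mp hg₀ v
    change Q ((((phi e P) g₀ : Matrix.GeneralLinearGroup (Fin n) F) : Matrix (Fin n) (Fin n) F) *ᵥ _) = _
    rw [phi_mulVec]
    exact this
  · intro hg
    refine ⟨(phi e P).symm g, ?_, by simp⟩
    rw [SetLike.mem_coe, Cfsg.Agent.Lib.Linalg.IsomRep.mem_isometryGroup]
    intro v
    have h1 := Cfsg.Agent.Lib.Linalg.IsomRep.mem_isometryGroup.mp hg ((P : Matrix (Fin n) (Fin n) F) *ᵥ (v ∘ e))
    have h2 := phi_mulVec e P ((phi e P).symm g) v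
    rw [MulEquiv.apply_symm_apply] at h2
    rw [h2] at h1
    exact h1

theorem omegaGL_eq {ι : Type} [Fintype ι] [DecidableEq ι] (Q : (ι → F) → F) :
    omegaGL Q = ⁅Cfsg.isometryGroup F Q, Cfsg.isometryGroup F Q⁆ :=
  Subgroup.map_subtype_commutator _

theorem map_omega {n k t : ℕ} (e : Fin n ≃ (Fin t → Fin k)) (P : Matrix.GeneralLinearGroup (Fin n) F)
    (Q : (Fin n → F) → F) :
    (omegaGL (fun v : (Fin t → Fin k) → F => Q ((P : Matrix (Fin n) (Fin n) F) *ᵥ (v ∘ e)))).map
      (phi e P).toMonoidHom = omegaGL Q := by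
  rw [omegaGL_eq, omegaGL_eq, Subgroup.map_commutator, map_isometry]

theorem map_wreath {n k t : ℕ} (e : Fin n ≃ (Fin t → Fin k)) (P : Matrix.GeneralLinearGroup (Fin n) F) :
    (tensorWreathStandard k t F).map (phi e P).toMonoidHom = tensorWreathSubgroup k t e P := by
  unfold tensorWreathSubgroup
  rw [Subgroup.map_map]
  rfl

/-- The form `f₁` in the case `k = 2`. -/
theorem gram_two [CharP F 2] {f₁ : (Fin 2 → F) → (Fin 2 → F) → F} (hf : IsSymplecticForm f₁) :
    gramMatrix f₁ = !![0, gramMatrix f₁ 0 1; gramMatrix f₁ 0 1, 0] := by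
  ext i j
  have h00 : gramMatrix f₁ 0 0 = 0 := hf.alternating _
  have h11 : gramMatrix f₁ 1 1 = 0 := hf.alternating _
  have h10 : gramMatrix f₁ 1 0 = gramMatrix f₁ 0 1 := by
    have := hf.skew (Pi.single 1 1) (Pi.single 0 1)
    rw [CharTwo.neg_eq] at this
    exact this
  fin_cases i <;> fin_cases j <;> simp [h00, h11, h10]

/-- Symplectic reduction for `k = 4`. -/
theorem exists_M [CharP F 2] {f₁ : (Fin 4 → F) → (Fin 4 → F) → F} (hf : IsSymplecticForm f₁) :
    ∃ M : Matrix.GeneralLinearGroup (Fin 4) F, (M.val)ᵀ * gramMatrix f₁ * M.val = J4 := by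
  let B : LinearMap.BilinForm F (Fin 4 → F) := LinearMap.mk₂ F f₁ hf.bilinear.add_left
    (fun c m n => by simpa using hf.bilinear.smul_left c m n) hf.bilinear.add_right
    (fun c m n => by simpa using hf.bilinear.smul_right c m n)
  have hB : ∀ x y, B x y = f₁ x y := fun _ _ => rfl
  have hA : B.IsAlt := fun x => hf.alternating x
  have hnd : B.Nondegenerate := by
    constructor
    · intro x hx
      by_contra h
      obtain ⟨y, hy⟩ := (hf.nondegenerate x h).2
      exact hy (hx y)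
    · intro x hx
      by_contra h
      obtain ⟨y, hy⟩ := (hf.nondegenerate x h).1
      exact hy (hx y)
  obtain ⟨E, hE⟩ := Cfsg.Agent.Lib.Classical.Symp.SympBasis.exists_sympEquiv B hA hnd (k := 2) (by simp)
  -- the identification of index sets
  let π : Fin 4 ≃ Fin 2 ⊕ Fin 2 :=
    { toFun := ![Sum.inl 0, Sum.inl 1, Sum.inr 1, Sum.inr 0]
      invFun := Sum.elim ![0, 1] ![3, 2]
      left_inv := by
        intro i
        fin_cases i <;> rfl
      right_inv := by
        intro i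
        rcases i with i | i <;> fin_cases i <;> rfl }
  let L : (Fin 4 → F) ≃ₗ[F] (Fin 4 → F) := E.trans (LinearEquiv.funCongrLeft F F π)
  have hL : ∀ x, L x = E x ∘ π := fun x => rfl
  have hform : ∀ x y : Fin 4 → F, L x ⬝ᵥ (J4 *ᵥ L y) = f₁ x y := by
    intro x y
    rw [← hB, ← hE, Cfsg.Agent.Lib.Classical.Symp.Basic.sympForm_apply, hL, hL]
    simp only [J4, Matrix.mulVec, dotProduct, Fin.sum_univ_four, Fin.sum_univ_two, Function.comp_apply]
    simp [π, sub_eq_add_neg, CharTwo.neg_eq]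
    ring
  refine ⟨Cfsg.Agent.Lib.Classical.Geo.Basic.glOfEquiv L.symm, ?_⟩
  apply matrix_eq_of_form
  intro u v
  rw [← dot_mulVec_mulVec]
  simp only [Cfsg.Agent.Lib.Classical.Geo.Basic.glOfEquiv_mulVec]
  rw [← gram_form hf.bilinear, ← hform, LinearEquiv.apply_symm_apply, LinearEquiv.apply_symm_apply]

/-- The statement. -/
theorem main_final {F : Type*} [Field F] [Fintype F] {n : ℕ} (hn : 13 ≤ n) (heven : Even n)
    (Q : (Fin n → F) → F) (hQ : IsNondegenerateQuadraticForm Q) (hchar : ¬ Odd (Fintype.card F))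
    (k t : ℕ) (ht : 2 ≤ t) (hk : k ≤ 4) (e : (Fin n) ≃ (Fin t → Fin k))
    (P : Matrix.GeneralLinearGroup (Fin n) F) (f₁ : (Fin k → F) → (Fin k → F) → F)
    (hf₁ : IsSymplecticForm f₁) (hT : IsTensorPowerFormStructure id (QuadraticMap.polar Q) f₁ e P)
    (hpure : (∀ xs : Fin t → (Fin k → F),
      Q (Matrix.mulVec (P : Matrix (Fin n) (Fin n) F) ((fun a : Fin t → Fin k => ∏ i, xs i (a i)) ∘ e)) = 0)) :
    ∃ K : Subgroup (Matrix.GeneralLinearGroup (Fin n) F),
      tensorWreathSubgroup k t e P ⊓ omegaGL Q < K ∧ K < omegaGL Q := by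
  classical
  -- characteristic two
  have h2 : (2 : F) = 0 := by
    have h3 : Fintype.card F % 2 = 0 := by
      rcases Nat.even_or_odd (Fintype.card F) with h | h
      · exact Nat.even_iff.mp h
      · exact absurd h hchar
    have h4 := FiniteField.even_card_iff_char_two.mpr h3
    have h5 : ringChar F ∣ 2 := by rw [h4]
    have := (ringChar.spec F 2).mpr h5
    exact_mod_cast this
  haveI : CharP F 2 := CharTwo.of_one_ne_zero_of_two_eq_zero one_ne_zero h2
  -- the numerics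
  have hcardX : Fintype.card (Fin t → Fin k) = n := by
    have := Fintype.card_congr e
    simpa using this.symm
  have hpow : k ^ t = n := by
    rw [← hcardX]
    simp
  obtain ⟨c, hc, hform⟩ := hT
  have hi : (⟨0, by omega⟩ : Fin t) ≠ ⟨1, by omega⟩ := by
    simp [Fin.ext_iff]
  -- the form
  have hQD := qd_of hQ hform hpure
  have hGa : ∀ v : Fin k → F, v ⬝ᵥ (gramMatrix f₁ *ᵥ v) = 0 := by
    intro v
    rw [← gram_form hf₁.bilinear]
    exact hf₁.alternating v
  have hGs : (gramMatrix f₁)ᵀ = gramMatrix f₁ := by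
    ext a b
    have := hf₁.skew (Pi.single b 1) (Pi.single a 1)
    rw [CharTwo.neg_eq] at this
    exact this
  have hk2 : 2 ≤ k := by
    by_contra hlt
    have hk1 : k = 0 ∨ k = 1 := by omega
    rcases hk1 with rfl | rfl
    · rw [zero_pow (by omega)] at hpow
      omega
    · rw [one_pow] at hpow
      omega
  have hG0 : gramMatrix f₁ ≠ 0 := by
    intro h0
    have hv : (Pi.single ⟨0, by omega⟩ 1 : Fin k → F) ≠ 0 := by
      intro h
      have := congrFun h ⟨0, by omega⟩
      simp at this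
    obtain ⟨x, hx⟩ := (hf₁.nondegenerate _ hv).1
    apply hx
    rw [gram_form hf₁.bilinear, h0, Matrix.zero_mulVec, dotProduct_zero]
  -- the case distinction
  have hcases : k = 2 ∨ k = 4 := by
    by_contra hcon
    have hk3 : k = 3 := by omega
    subst hk3
    have : Odd (3 ^ t) := Odd.pow (by decide)
    rw [hpow] at this
    exact (Nat.not_even_iff_odd.mpr this) heven
  have hsub : ∃ (Sub : Submodule F (Matrix (Fin k) (Fin k) F)) (s e' : Matrix (Fin k) (Fin k) F),
      SubData (gramMatrix f₁) t Sub s e' := by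
    rcases hcases with rfl | rfl
    · have ht3 : 3 ≤ t := by
        by_contra hlt
        have ht2 : t = 2 := by omega
        subst ht2
        omega
      have h1 := gram_two hf₁
      refine ⟨sub2, !![0, 1; 1, 0], !![0, 1; 0, 0], ?_⟩
      rw [h1]
      exact subData_two ht3
    · obtain ⟨M, hM⟩ := exists_M hf₁
      exact ⟨_, _, _, SubData.conjM M hM subData_four⟩
  obtain ⟨Sub, s, e', D⟩ := hsub
  obtain ⟨K₀, h1, h3⟩ := main hi hGs hGa hG0 hc hQD (by omega) D
  refine ⟨K₀.map (phi e P).toMonoidHom, ?_, ?_⟩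
  · rw [← map_wreath, ← map_omega, ← Subgroup.map_inf _ _ _ (phi e P).injective]
    exact (Subgroup.map_lt_map_iff_of_injective (phi e P).injective).mpr h1
  · rw [← map_omega]
    exact (Subgroup.map_lt_map_iff_of_injective (phi e P).injective).mpr h3

end Cfsg.Agent.Lib.Classical.TenSpin.Final
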